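import Cfsg.Agent.H26.J4.M4

/-! General lemmas on centralizers modulo a subgroup. -/

set_option autoImplicit false
set_option linter.unusedSectionVars false
set_option linter.unusedVariables false
set_option maxRecDepth 100000
open Subgroup H16 H19 H0 H0.TR H20.J4 H26.J4
open scoped commutatorElement
namespace H26.JP
variable {G : Type*} [Group G]
local notation "cj" => H19.cj

theorem cml (a b g : G) : ⁅a * b, g⁆ = a * ⁅b, g⁆ * a⁻¹ * ⁅a, g⁆ := by simp only [commutatorElement_def]; group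
theorem cmr (a b g : G) : ⁅g, a * b⁆ = ⁅g, a⁆ * (a * ⁅g, b⁆ * a⁻¹) := by simp only [commutatorElement_def]; group
theorem cmi (a g : G) : ⁅a⁻¹, g⁆ = a⁻¹ * ⁅a, g⁆⁻¹ * a := by simp only [commutatorElement_def]; group
theorem cmc (k a g : G) : k * ⁅a, g⁆ * k⁻¹ = ⁅k * a * k⁻¹, k * g * k⁻¹⁆ := by simp only [commutatorElement_def]; group
theorem cms {B : Subgroup G} {a g : G} (h : ⁅a, g⁆ ∈ B) : ⁅g, a⁆ ∈ B := commutatorElement_inv a g ▸ inv_mem h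
theorem cm1 {a g : G} : ⁅a, g⁆ = 1 ↔ a ∈ C[g] := by rw [commutatorElement_eq_one_iff_mul_comm, mem_cent1]
theorem cjcm (a g : G) : a * g * a⁻¹ = ⁅a, g⁆ * g := by simp only [commutatorElement_def]; group
theorem cmN {B : Subgroup G} {a g : G} (ha : a ∈ N(B)) (hg : g ∈ B) : ⁅a, g⁆ ∈ B :=
  mul_mem (conj_mem_of_norm ha hg) (inv_mem hg)
/-- the centralizer of `X` modulo `B` -/
def cm (B : Subgroup G) (X : Set G) : Subgroup G where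
  carrier := {m | m ∈ N(B) ∧ ∀ g ∈ X, ⁅m, g⁆ ∈ B}
  one_mem' := ⟨one_mem _, fun g _ => by simp⟩
  mul_mem' := fun {a b} ha hb => ⟨mul_mem ha.1 hb.1, fun g hg => by
    rw [cml]; exact mul_mem (conj_mem_of_norm ha.1 (hb.2 g hg)) (ha.2 g hg)⟩
  inv_mem' := fun {a} ha => ⟨inv_mem ha.1, fun g hg => by
    rw [cmi]; exact conj_mem_of_norm' ha.1 (inv_mem (ha.2 g hg))⟩
/-- the `X`-core of `A` -/
def core (X A : Subgroup G) : Subgroup G where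
  carrier := {m | ∀ r ∈ X, r * m * r⁻¹ ∈ A}
  one_mem' := fun r _ => by simp
  mul_mem' := fun {a b} ha hb r hr => cjmul r a b ▸ mul_mem (ha r hr) (hb r hr)
  inv_mem' := fun {a} ha r hr => by simpa [mul_assoc] using inv_mem (ha r hr)
section
variable {A B D X Y : Subgroup G} {S T : Set G} {a b c g k m : G}
theorem mem_core : m ∈ core X A ↔ ∀ r ∈ X, r * m * r⁻¹ ∈ A := Iff.rfl
theorem core_le : core X A ≤ A := fun m h => by simpa using h 1 (one_mem _)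
theorem le_core (h1 : B ≤ A) (h2 : X ≤ N(B)) : B ≤ core X A := fun m h r hr => h1 (conj_mem_of_norm (h2 hr) h)
theorem core_nm [Finite G] (h1 : g ∈ N(X)) (h2 : g ∈ N(A) ∨ g ∈ X) : g ∈ N(core X A) := mem_norm_of_cj_le fun y hy r hr => by
  obtain ⟨m, hm, rfl⟩ := mem_cj'.1 hy
  rcases h2 with h2 | h2
  · simpa [mul_assoc] using conj_mem_of_norm h2 (hm _ (conj_mem_of_norm' h1 hr))
  · exact cjcj r g m ▸ hm _ (mul_mem hr h2)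
theorem mem_cm : m ∈ cm B S ↔ m ∈ N(B) ∧ ∀ g ∈ S, ⁅m, g⁆ ∈ B := Iff.rfl
theorem mem_cm1 : m ∈ cm B {g} ↔ m ∈ N(B) ∧ ⁅m, g⁆ ∈ B := by simp [mem_cm]
theorem cm_le : cm B S ≤ N(B) := fun _ h => h.1
theorem cm_anti (h : S ⊆ T) : cm B T ≤ cm B S := fun _ k => ⟨k.1, fun g hg => k.2 g (h hg)⟩
theorem cm_one (h : g ∈ S) : cm B S ≤ cm B {g} := cm_anti (Set.singleton_subset_iff.2 h)
theorem cm_sy (h : m ∈ cm B {g}) (hg : g ∈ N(B)) : g ∈ cm B {m} := mem_cm1.2 ⟨hg, cms (mem_cm1.1 h).2⟩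
theorem cm_sys (h : X ≤ cm B Y) (hY : Y ≤ N(B)) : Y ≤ cm B X := fun g hg => ⟨hY hg, fun m hm => cms ((h hm).2 g hg)⟩
theorem le_cm (h : ∀ g ∈ S, g ∈ N(B)) : B ≤ cm B S := fun m hm => ⟨le_normalizer hm, fun g hg => cms (cmN (h g hg) hm)⟩
theorem le_cm1 (h : g ∈ N(B)) : B ≤ cm B {g} := le_cm (by simpa using h)
theorem cent_cm (h1 : m ∈ N(B)) (h : m ∈ C[g]) : m ∈ cm B {g} := mem_cm1.2 ⟨h1, cm1.2 h ▸ one_mem _⟩
theorem cm_bot1 : cm ⊥ {g} = C[g] := by ext; rw [mem_cm1, norm_bot, mem_bot, cm1]; simp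
theorem cm_bot : cm ⊥ X = C(X) := by
  ext; simp only [mem_cm, norm_bot, mem_top, true_and, mem_bot, mem_cent, commutatorElement_eq_one_iff_mul_comm]
  exact ⟨fun h g hg => (h g hg).symm, fun h g hg => (h g hg).symm⟩
theorem cm_conj (h : m ∈ cm B S) : k * m * k⁻¹ ∈ cm (cj k B) ((fun x => k * x * k⁻¹) '' S) :=
  ⟨cj_norm k B ▸ conj_mem_cj.2 h.1, by rintro _ ⟨g, hg, rfl⟩; exact cmc k m g ▸ conj_mem_cj.2 (h.2 g hg)⟩
theorem cj_cm (k : G) (B X : Subgroup G) : cj k (cm B X) = cm (cj k B) (cj k X) := by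
  ext m
  rw [mem_cj, mem_cm, mem_cm, ← cj_norm, mem_cj]
  refine and_congr_right fun _ => ⟨fun h g hg => mem_cj.2 ?_, fun h g hg => ?_⟩
  · simpa only [← cmc, inv_inv] using (show k⁻¹ * ⁅m, g⁆ * k⁻¹⁻¹ ∈ B from cmc k⁻¹ m g ▸ by simpa using h _ (mem_cj.1 hg))
  · have := mem_cj.1 (h _ (conj_mem_cj.2 hg))
    rwa [show k⁻¹ * ⁅m, k * g * k⁻¹⁆ * k = ⁅k⁻¹ * m * k, g⁆ by simp only [commutatorElement_def]; group] at this
theorem cj_cm1 (k : G) (B : Subgroup G) (g : G) : cj k (cm B {g}) = cm (cj k B) {k * g * k⁻¹} := by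
  ext m
  rw [mem_cj, mem_cm1, mem_cm1, ← cj_norm, mem_cj, mem_cj,
    show k⁻¹ * ⁅m, k * g * k⁻¹⁆ * k = ⁅k⁻¹ * m * k, g⁆ by simp only [commutatorElement_def]; group]
theorem cm_nm (h1 : k ∈ N(B)) (h2 : k ∈ N(X)) : k ∈ N(cm B X) := by
  rw [mem_norm_iff_cj, cj_cm, cj_of_mem_norm h1, cj_of_mem_norm h2]
theorem cm_nms (h1 : A ≤ N(B)) (h2 : A ≤ N(X)) : A ≤ N(cm B X) := fun _ h => cm_nm (h1 h) (h2 h)
theorem cm_cj1 (h1 : k ∈ N(B)) (h : m ∈ cm B {g}) : k * m * k⁻¹ ∈ cm B {k * g * k⁻¹} := by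
  have := conj_mem_cj (g := k).2 h
  rwa [cj_cm1, cj_of_mem_norm h1] at this
theorem cm_mul1 (ha : a ∈ N(B)) (h1 : m ∈ cm B {a}) (h2 : m ∈ cm B {b}) : m ∈ cm B {a * b} :=
  mem_cm1.2 ⟨h1.1, cmr a b m ▸ mul_mem (mem_cm1.1 h1).2 (conj_mem_of_norm ha (mem_cm1.1 h2).2)⟩
theorem cm_zp (ha : a ∈ N(B)) (h1 : m ∈ cm B {a}) (h : b ∈ zpowers a) : m ∈ cm B {b} :=
  cm_sy (zpowers_le.2 (cm_sy h1 ha) h) h1.1
theorem comm_le_cm (h : X ≤ cm B Y) : ⁅X, Y⁆ ≤ B := commutator_le.2 fun a ha b hb => (h ha).2 b hb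
theorem cm_of_comm (h1 : X ≤ N(B)) (h : ⁅X, Y⁆ ≤ B) : X ≤ cm B Y := fun a ha =>
  ⟨h1 ha, fun b hb => h (commutator_mem_commutator ha hb)⟩
theorem qcm {m g : N(B)} : qmk B m ∈ C[qmk B g] ↔ (m : G) ∈ cm B {(g : G)} := by
  rw [← cm1, ← map_commutatorElement, qmk_eq_one, mem_cm1]; simp [commutatorElement_def]
theorem qmem (h1 : B ≤ A) (h2 : A ≤ N(B)) {m : N(B)} : qmk B m ∈ quo B A ↔ (m : G) ∈ A := by
  rw [qmk_mem_quo h2, sup_eq_right.2 h1]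
theorem qnm {g : N(B)} (h : (g : G) ∈ N(A)) : qmk B g ∈ N(quo B A) := im_norm_le (mem_im_of h)
theorem quo_cm1 (h1 : B ≤ A) (h2 : A ≤ N(B)) (hg : g ∈ N(B)) : quo B (A ⊓ cm B {g}) = quo B A ⊓ C[qmk B ⟨g, hg⟩] := by
  ext u
  obtain ⟨u, rfl⟩ := qmk_surj B u
  rw [qmem (le_inf h1 (le_cm1 hg)) (inf_le_left.trans h2), mem_inf, mem_inf, qmem h1 h2, qcm]
theorem quo_cm (h1 : B ≤ A) (h2 : A ≤ N(B)) (hX : X ≤ N(B)) : quo B (A ⊓ cm B X) = quo B A ⊓ C(quo B X) := by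
  ext u
  obtain ⟨u, rfl⟩ := qmk_surj B u
  rw [qmem (le_inf h1 (le_cm hX)) (inf_le_left.trans h2), mem_inf, mem_inf, qmem h1 h2]
  refine and_congr_right fun _ => ⟨fun h => le_cent1_iff.1 fun v hv => ?_, fun h => ⟨u.2, fun g hg => ?_⟩⟩
  · obtain ⟨v, hw, rfl⟩ := H19.mem_im.1 hv
    exact mem_cent1_symm.1 (qcm.2 (cm_one hw h))
  · exact (mem_cm1.1 ((qcm (g := ⟨g, hX hg⟩)).1 (cent_le_cent1 (mem_im_of hg) h))).2
variable [Finite G]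
theorem cq (h1 : B ≤ A) (h2 : A ≤ N(B)) : #A = #B * #(quo B A) := by rw [card_quo h2, card_mul_relIndex h1]
theorem qpow {g : N(B)} {n : ℕ} (h : (g : G) ^ n ∈ B) : qmk B g ^ n = 1 := by rw [← map_pow, qmk_eq_one]; exact h
theorem qsq {g : N(B)} (h : (g : G) * g ∈ B) : qmk B g * qmk B g = 1 := by rw [← map_mul, qmk_eq_one]; exact h
theorem fixq {p : ℕ} (hp : p.Prime) (h1 : B ≤ A) (h2 : A ≤ N(B)) (hg : g ∈ N(B)) (hA : g ∈ N(A)) (e : g ^ p ∈ B) :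
    #A ≡ #(A ⊓ cm B {g}) [MOD p] := by
  rw [cq h1 h2, cq (le_inf h1 (le_cm1 hg)) (inf_le_left.trans h2), quo_cm1 h1 h2 hg]
  exact (fix_sub hp (qpow e) (qnm hA)).mul_left _
theorem fixcos {p : ℕ} (hA : PG p A) (hX : PG p X) (h1 : B ≤ A) (h2 : A ≤ N(B)) (h3 : X ≤ N(B)) (h4 : X ≤ N(A)) (n : A ≠ B) :
    ∃ a ∈ A, a ∉ B ∧ a ∈ cm B X := by
  have := (hA.quo B).meet_cent (hX.quo B) (quo_norms h4) (mt (quo_eq_bot_iff h2).1 fun e => n (le_antisymm e h1))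
  rw [← quo_cm h1 h2 h3, Ne, quo_eq_bot_iff (inf_le_left.trans h2), SetLike.not_le_iff_exists] at this
  obtain ⟨a, ha, k⟩ := this
  exact ⟨a, ha.1, k, ha.2⟩
theorem cmq (h1 : B ≤ A) (h2 : A ≤ N(B)) (s : ∀ a ∈ A, a * a ∈ B) (hg : g ∈ N(B)) (hA : g ∈ N(A)) (e : g * g ∈ B) :
    ∃ J, B ≤ J ∧ J ≤ A ⊓ cm B {g} ∧ (∀ u ∈ J, ∃ a ∈ A, ∃ b ∈ B, u = ⁅a, g⁆ * b) ∧ #J * #(A ⊓ cm B {g}) = #A * #B := by
  obtain ⟨J, l, k, c⟩ := cmap (Q := quo B A) (fun q hq => by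
    obtain ⟨q, hw, rfl⟩ := H19.mem_im.1 hq
    exact qsq (s _ hw)) (qnm (g := ⟨g, hg⟩) hA) (qsq e)
  rw [← quo_cm1 h1 h2 hg] at l c
  have l1 := le_inf h1 (le_cm1 hg)
  refine ⟨qpre B J, le_qpre _, qpre_le l1 l, fun u hu => ?_, ?_⟩
  · obtain ⟨hu, m⟩ := H19.mem_pre.1 hu
    obtain ⟨q, hq, e⟩ := k _ m
    obtain ⟨q, hw, rfl⟩ := H19.mem_im.1 hq
    rw [← commutatorElement_def, ← map_commutatorElement, qmk_eq] at e
    exact ⟨q, hw, _, e, by simp [commutatorElement_def, mul_assoc]⟩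
  · rw [card_qpre, cq l1 (inf_le_left.trans h2), cq h1 h2, ← c]; ring
theorem lbq (h1 : B ≤ A) (h2 : A ≤ N(B)) (s : ∀ a ∈ A, a * a ∈ B) (hg : g ∈ N(B)) (hA : g ∈ N(A)) (e : g * g ∈ B) :
    #A * #B ≤ #(A ⊓ cm B {g}) * #(A ⊓ cm B {g}) := by
  obtain ⟨J, -, l, -, c⟩ := cmq h1 h2 s hg hA e
  exact c ▸ Nat.mul_le_mul_right _ (card_le l)
theorem cbd (h : ∀ x ∈ X, ⁅x, g⁆ ∈ Y) : #X ≤ #(X ⊓ C[g]) * #Y := by
  rw [← cl_card X g, mul_comm]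
  refine Nat.mul_le_mul_left _ ?_
  rw [← Set.ncard_image_of_injective _ (mul_left_injective g⁻¹)]
  have : (fun a => a * g⁻¹) '' cl X g ⊆ (Y : Set G) := by rintro _ ⟨_, ⟨x, hx, rfl⟩, rfl⟩; exact h x hx
  exact Set.ncard_le_ncard this
theorem cbdq (h1 : B ≤ X) (h2 : X ≤ N(B)) (h3 : B ≤ Y) (h4 : Y ≤ N(B)) (hg : g ∈ N(B)) (h : ∀ x ∈ X, ⁅x, g⁆ ∈ Y) :
    #X * #B ≤ #(X ⊓ cm B {g}) * #Y := by
  have := cbd (X := quo B X) (Y := quo B Y) (g := qmk B ⟨g, hg⟩) fun x hx => by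
    obtain ⟨x, hw, rfl⟩ := H19.mem_im.1 hx
    rw [← map_commutatorElement]; exact mem_im_of (h _ hw)
  rw [← quo_cm1 h1 h2 hg] at this
  rw [cq h1 h2, cq (le_inf h1 (le_cm1 hg)) (inf_le_left.trans h2), cq h3 h4]
  nlinarith [Nat.mul_le_mul_left (#B * #B) this]
theorem ncd (h : B ≤ A) : ((A : Set G) \ B).ncard = #A - #B := Set.ncard_sdiff h
theorem orb {n : ℕ} (h : cl X c ⊆ S) (e : S.ncard = n) : #X ≤ n * #(X ⊓ C[c]) ∧ (n * #(X ⊓ C[c]) ≤ #X → cl X c = S) := by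
  have := Set.ncard_le_ncard h
  rw [← cl_card X c, ← e]
  exact ⟨Nat.mul_le_mul_right _ this, fun k => Set.eq_of_subset_of_ncard_le h (Nat.le_of_mul_le_mul_right k (card_pos _))⟩
theorem cl_diff (h1 : X ≤ N(A)) (h2 : X ≤ N(B)) (hc : c ∈ A) (n : c ∉ B) : cl X c ⊆ (A : Set G) \ B := by
  rintro _ ⟨g, hg, rfl⟩
  exact ⟨conj_mem_of_norm (h1 hg) hc, fun e => n (by simpa [mul_assoc] using conj_mem_of_norm' (h2 hg) e)⟩
theorem two_eq (h1 : B ≤ D) (h2 : D ≤ A) (e : #A ≤ 2 * #B) (hc : c ∈ D) (n : c ∉ B) : D = A := by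
  obtain ⟨i, hi⟩ := card_dvd h1
  have := card_lt (lt_of_le_of_ne h1 fun e => n (e ▸ hc))
  have := card_pos B
  refine eq_of_le_of_card_ge h2 (e.trans ?_)
  rw [hi] at *
  rcases i with _ | _ | i <;> nlinarith
theorem two_mul (h1 : B ≤ A) (e : #A ≤ 2 * #B) (ha : a ∈ A) (hb : b ∈ A) (n1 : a ∉ B) (n2 : b ∉ B) : a * b ∈ B := by
  have := card_mul_relIndex h1
  have p := card_pos B
  have p2 := relIndex_pos B A
  have : B.relIndex A = 2 := by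
    have : B.relIndex A ≠ 1 := fun e => n1 (relIndex_eq_one.1 e ha)
    have : B.relIndex A ≤ 2 := by nlinarith
    omega
  exact (mul_mem_iff_of_index_two this (a := ⟨a, ha⟩) (b := ⟨b, hb⟩)).2 (iff_of_false n1 n2)
theorem c2 (h : a * a = 1) (n : a ≠ 1) : #(zpowers a) = 2 := by
  rw [Nat.card_zpowers, orderOf_eq_prime (by rw [_root_.sq, h]) n]
theorem c4 (s : ∀ a ∈ A, a * a = 1) (h1 : B ≤ A) (hb : b ∈ A) (n : b ∉ B) : #(B ⊔ zpowers b) = 2 * #B := by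
  have b1 : b ≠ 1 := fun e => n (e ▸ one_mem _)
  rw [card_sup_of_disjoint (norms_of_cents (cents_mono (ab_sq s) (zpowers_le.2 hb) h1)) (inf_comm B _ ▸ inf_eq_bot_of_prime
    (c2 (s b hb) b1 ▸ Nat.prime_two) (mt zpowers_le.1 n)), c2 (s b hb) b1, mul_comm]
theorem pw2 (h : PG 2 A) {n : ℕ} (c : #A < 2 ^ (n + 1)) : #A ≤ 2 ^ n := by
  obtain ⟨k, e⟩ := h.exists_card
  rw [e] at c ⊢
  exact Nat.pow_le_pow_right two_pos (Nat.lt_succ_iff.1 ((Nat.pow_lt_pow_iff_right (by decide)).1 c))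
theorem pw2' (h : PG 2 A) {n : ℕ} (c : 2 ^ n < #A) : 2 ^ (n + 1) ≤ #A := by
  obtain ⟨k, e⟩ := h.exists_card
  rw [e] at c ⊢
  exact Nat.pow_le_pow_right two_pos ((Nat.pow_lt_pow_iff_right (by decide)).1 c)
theorem infbd (h1 : X ≤ A) (h2 : Y ≤ A) (n : Y ≤ N(X)) : #X * #Y ≤ #A * #(X ⊓ Y) :=
  card_sup_mul_inf n ▸ Nat.mul_le_mul_right _ (card_le (sup_le h1 h2))
theorem ex_out (h : #B < #A) : ∃ a ∈ A, a ∉ B := SetLike.not_le_iff_exists.1 fun e => (card_le e).not_gt h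
end
end H26.JP
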