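import Cfsg.Agent.H26.JP.A0

/-! Pairing, Burnside counts and actions on groups of order eight. -/

set_option autoImplicit false
set_option linter.unusedSectionVars false
set_option linter.unusedVariables false
set_option maxRecDepth 100000
open Subgroup H16 H19 H0 H0.TR H20.J4 H26.J4
open scoped commutatorElement
namespace H26.JP
variable {G : Type*} [Group G]
local notation "cj" => H19.cj

section
variable {A B D X Y Z l : Subgroup G} {S T : Set G} {a b c d g k m : G} [Finite G]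
open Classical in
theorem pair_aux (h1 : ∀ x ∈ X, ∀ y ∈ Y, ⁅x, y⁆ ∈ Z) (hY : Y ≤ C(Z)) (hX : X ≤ N(l))
    (h2 : ∀ a ∈ Z, ∀ b ∈ Z, a ∉ l → b ∉ l → a * b ∈ l) [Fintype X] [Fintype Y] :
    ∑ x : X, ∑ y : Y, (if ⁅(x : G), (y : G)⁆ ∈ l then (1 : ℤ) else -1) = #(X ⊓ cm l Y) * #Y := by
  have k : ∀ x : X, ∑ y : Y, (if ⁅(x : G), (y : G)⁆ ∈ l then (1 : ℤ) else -1) = if (x : G) ∈ cm l Y then (#Y : ℤ) else 0 := fun x => by
    let f : Y →* ℤ := ⟨⟨fun y => if ⁅(x : G), (y : G)⁆ ∈ l then 1 else -1, by simp⟩, fun y w => by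
      have e : ⁅(x : G), ((y * w : Y) : G)⁆ = ⁅(x : G), (y : G)⁆ * ⁅(x : G), (w : G)⁆ := by
        rw [coe_mul, cmr, cjc (cent_le_cent1 (h1 _ x.2 _ w.2) (hY y.2))]
      simp only [e]
      by_cases p : ⁅(x : G), (y : G)⁆ ∈ l <;> by_cases q : ⁅(x : G), (w : G)⁆ ∈ l
      · simp [p, q, mul_mem p q]
      · simp [p, q, l.mul_mem_cancel_left p]
      · simp [p, q, l.mul_mem_cancel_right q]
      · simp [p, q, h2 _ (h1 _ x.2 _ y.2) _ (h1 _ x.2 _ w.2) p q]⟩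
    have := sum_hom_units f
    rw [← Nat.card_eq_fintype_card] at this
    refine this.trans ?_
    push_cast
    refine if_congr ⟨fun e => ⟨hX x.2, fun y hy => by_contra fun n => ?_⟩, fun e => MonoidHom.ext fun y => if_pos (e.2 y y.2)⟩ rfl rfl
    simpa [f, n] using DFunLike.congr_fun e ⟨y, hy⟩
  simp only [k]
  rw [← Finset.sum_filter, Finset.sum_const, nsmul_eq_mul, inf_comm, ← card_subgroupOf, Nat.card_eq_fintype_card (α := (cm l Y).subgroupOf X),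
    Fintype.card_subtype]
  rfl
theorem pair (h1 : ∀ x ∈ X, ∀ y ∈ Y, ⁅x, y⁆ ∈ Z) (hX : X ≤ C(Z)) (hY : Y ≤ C(Z)) (hl : l ≤ Z)
    (h2 : ∀ a ∈ Z, ∀ b ∈ Z, a ∉ l → b ∉ l → a * b ∈ l) : #(X ⊓ cm l Y) * #Y = #(Y ⊓ cm l X) * #X := by
  classical
  have := Fintype.ofFinite X
  have := Fintype.ofFinite Y
  have e1 := pair_aux h1 hY (norms_of_cents (hX.trans (cent_mono hl))) h2
  have e2 := pair_aux (fun y hy x hx => cms (h1 x hx y hy)) hX (norms_of_cents (hY.trans (cent_mono hl))) h2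
  rw [Finset.sum_comm] at e2
  have : ∀ x y : G, ⁅y, x⁆ ∈ l ↔ ⁅x, y⁆ ∈ l := fun _ _ => ⟨cms, cms⟩
  simp only [this] at e2
  exact_mod_cast e1.symm.trans e2
theorem c3sq (h : a ^ 3 = 1) : C[a ^ 2] = C[a] := le_antisymm (by
  have := cent1_le_cent1_pow (a ^ 2) 2
  rwa [← pow_mul, pow_succ _ 3, h, one_mul] at this) (cent1_le_cent1_pow _ _)
theorem burn9 (ha : a ^ 3 = 1) (hb : b ^ 3 = 1) (h : Commute a b) (h1 : ∀ y ∈ S, a * y * a⁻¹ ∈ S) (h2 : ∀ y ∈ S, b * y * b⁻¹ ∈ S) :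
    9 ∣ S.ncard + 2 * ((S ∩ C[a]).ncard + (S ∩ C[b]).ncard + (S ∩ C[a * b]).ncard + (S ∩ C[a * b ^ 2]).ncard) := by
  classical
  have pw : ∀ {c : G}, (∀ y ∈ S, c * y * c⁻¹ ∈ S) → ∀ n : ℕ, ∀ y ∈ S, c ^ n * y * (c ^ n)⁻¹ ∈ S := fun {c} k n => by
    induction n with
    | zero => simp
    | succ n ih => exact fun y hy => by rw [pow_succ, ← cjcj]; exact ih _ (k y hy)
  let w : ZMod 3 × ZMod 3 → G := fun i => a ^ i.1.val * b ^ i.2.val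
  have wa : ∀ i j, w (i + j) = w i * w j := fun i j => by
    simp only [w, Prod.fst_add, Prod.snd_add, ZMod.val_add]
    rw [← pow_eq_pow_mod _ ha, ← pow_eq_pow_mod _ hb, pow_add, pow_add, (h.pow_pow _ _).mul_mul_mul_comm]
  let _ : AddAction (ZMod 3 × ZMod 3) S := {
    vadd := fun i s => ⟨w i * s * (w i)⁻¹, by rw [← cjcj]; exact pw h1 _ _ (pw h2 _ _ s.2)⟩
    zero_vadd := fun s => Subtype.ext (show w 0 * s * (w 0)⁻¹ = s by simp [w])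
    add_vadd := fun i j s => Subtype.ext (show w (i + j) * s * (w (i + j))⁻¹ = w i * (w j * s * (w j)⁻¹) * (w i)⁻¹ by rw [wa, cjcj]) }
  have := Fintype.ofFinite S
  have e := AddAction.sum_card_fixedBy_eq_card_orbits_mul_card_addGroup (ZMod 3 × ZMod 3) S
  have f : ∀ i : ZMod 3 × ZMod 3, Fintype.card (AddAction.fixedBy S i) = (S ∩ C[w i]).ncard := fun i => by
    rw [← Nat.card_eq_fintype_card, Nat.card_coe_set_eq, ← Set.ncard_image_of_injective _ Subtype.val_injective]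
    congr 1
    ext y
    exact ⟨by rintro ⟨y, k, rfl⟩; exact ⟨y.2, mem_cent1_symm.1 (of_cjc (congrArg Subtype.val k))⟩,
      fun k => ⟨⟨y, k.1⟩, Subtype.ext (cjc' k.2), rfl⟩⟩
  simp only [f] at e
  rw [Fintype.sum_prod_type] at e
  have s : ∀ F : ZMod 3 → ℕ, ∑ i, F i = F 0 + F 1 + F 2 := fun F => Fin.sum_univ_three F
  have v0 : (0 : ZMod 3).val = 0 := rfl
  have v1 : (1 : ZMod 3).val = 1 := rfl
  have v2 : (2 : ZMod 3).val = 2 := rfl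
  have e1 : C[a ^ 2 * b ^ 2] = C[a * b] := by rw [← h.mul_pow, c3sq (by rw [h.mul_pow, ha, hb, mul_one])]
  have e2 : C[a ^ 2 * b] = C[a * b ^ 2] := by
    rw [← c3sq (a := a * b ^ 2) (by rw [(h.pow_right 2).mul_pow, ha, pow_right_comm, hb]; simp), (h.pow_right 2).mul_pow, ← pow_mul,
      pow_succ b 3, hb, one_mul]
  simp only [s, w, v0, v1, v2, pow_zero, pow_one, mul_one, one_mul, c3sq ha, c3sq hb, e1, e2, cent1_one, coe_top, Set.inter_univ,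
    Fintype.card_prod, ZMod.card] at e
  omega
theorem pl_gen (s : ∀ a ∈ A, a * a = 1) (cA : #A = 8) (h : l ≤ A) (c4' : #l = 4) (hc : c ∈ A) (n : c ∉ l) : l ⊔ zpowers c = A :=
  eq_of_le_of_card_eq (sup_le h (zpowers_le.2 hc)) (by rw [c4 s h hc n, cA, c4'])
theorem pl2 (s : ∀ a ∈ A, a * a = 1) (ha : a ∈ A) (hb : b ∈ A) (a1 : a ≠ 1) (n : b ∉ zpowers a) : #(zpowers a ⊔ zpowers b) = 4 := by
  rw [c4 s (zpowers_le.2 ha) hb n, c2 (s a ha) a1]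
theorem o4 (cA : #A = 8) (n : X ≤ N(A)) (h : l ≤ A) (c4' : #l = 4) (n' : X ≤ N(l)) (hc : c ∈ A) (hn : c ∉ l) :
    #X ≤ 4 * #(X ⊓ C[c]) ∧ (4 * #(X ⊓ C[c]) ≤ #X → cl X c = (A : Set G) \ l) :=
  orb (cl_diff n n' hc hn) (by rw [ncd h, cA, c4'])
theorem f4 (s : ∀ a ∈ A, a * a = 1) (cA : #A = 8) (n : X ≤ N(A)) (h : l ≤ A) (c4' : #l = 4) (hc : c ∈ A) (hn : c ∉ l) :
    #(X ⊓ C(l)) ≤ 4 * #(X ⊓ C(A)) ∧ (4 * #(X ⊓ C(A)) ≤ #(X ⊓ C(l)) → cl (X ⊓ C(l)) c = (A : Set G) \ l) := by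
  have := o4 cA (inf_le_left.trans n : X ⊓ C(l) ≤ _) h c4' (inf_le_right.trans (cent_le_norm _)) hc hn
  rwa [inf_assoc, ← cent_zpowers, ← cent_sup, pl_gen s cA h c4' hc hn] at this
theorem f6 (s : ∀ a ∈ A, a * a = 1) (cA : #A = 8) (n : X ≤ N(A)) (ha : a ∈ A) (a1 : a ≠ 1) (hb : b ∈ A) (hn : b ∉ zpowers a) :
    #(X ⊓ C[a]) ≤ 6 * #(X ⊓ C(zpowers a ⊔ zpowers b)) ∧ (6 * #(X ⊓ C(zpowers a ⊔ zpowers b)) ≤ #(X ⊓ C[a]) →
      cl (X ⊓ C[a]) b = (A : Set G) \ zpowers a) := by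
  have := orb (n := 6) (cl_diff (inf_le_left.trans n : X ⊓ C[a] ≤ _) (inf_le_right.trans (cN a)) hb hn)
    (by rw [ncd (zpowers_le.2 ha), cA, c2 (s a ha) a1])
  rwa [inf_assoc, ← cent_zpowers, ← cent_zpowers b, ← cent_sup, cent_zpowers] at this
theorem f7 (cA : #A = 8) (n : X ≤ N(A)) (ha : a ∈ A) (a1 : a ≠ 1) :
    #X ≤ 7 * #(X ⊓ C[a]) ∧ (7 * #(X ⊓ C[a]) ≤ #X → cl X a = (A : Set G) \ (⊥ : Subgroup G)) :=
  orb (cl_diff n (norm_bot (G := G) ▸ le_top) ha (mt mem_bot.1 a1)) (by rw [ncd bot_le, cA, card_bot])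
theorem ex_b (s : ∀ a ∈ A, a * a = 1) (cA : 2 < #A) (ha : a ∈ A) : ∃ b ∈ A, b ∉ zpowers a := ex_out (by
  by_cases e : a = 1
  · simp [e]; omega
  · rwa [c2 (s a ha) e])
theorem f168 (s : ∀ a ∈ A, a * a = 1) (cA : #A = 8) (n : X ≤ N(A)) : #X ≤ 168 * #(X ⊓ C(A)) := by
  obtain ⟨a, ha, a1⟩ := exists_ne_one (H := A) fun e => by simp [e] at cA
  obtain ⟨b, hb, nb⟩ := ex_b s (by omega) ha
  obtain ⟨c, hc, nc⟩ := ex_out (A := A) (by rw [pl2 s ha hb a1 nb]; omega)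
  have := (f7 cA n ha a1).1
  have := (f6 s cA n ha a1 hb nb).1
  have := (f4 s cA n (sup_le (zpowers_le.2 ha) (zpowers_le.2 hb)) (pl2 s ha hb a1 nb) hc nc).1
  omega
/-- `X` induces the full automorphism group on `A` of order eight -/
structure F3 (A X : Subgroup G) : Prop where
  sq : ∀ a ∈ A, a * a = 1
  cA : #A = 8
  n : X ≤ N(A)
  c : #X = 168 * #(X ⊓ C(A))
namespace F3
variable (h : F3 A X)
include h
theorem all (ha : a ∈ A) (a1 : a ≠ 1) (hb : b ∈ A) (nb : b ∉ zpowers a) : #X = 7 * #(X ⊓ C[a]) ∧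
    #(X ⊓ C[a]) = 6 * #(X ⊓ C(zpowers a ⊔ zpowers b)) ∧ #(X ⊓ C(zpowers a ⊔ zpowers b)) = 4 * #(X ⊓ C(A)) := by
  obtain ⟨c, hc, nc⟩ := ex_out (A := A) (by rw [pl2 h.sq ha hb a1 nb, h.cA]; omega)
  have := (f7 h.cA h.n ha a1).1
  have := (f6 h.sq h.cA h.n ha a1 hb nb).1
  have := (f4 h.sq h.cA h.n (sup_le (zpowers_le.2 ha) (zpowers_le.2 hb)) (pl2 h.sq ha hb a1 nb) hc nc).1
  have := h.c
  omega
theorem c7 (ha : a ∈ A) (a1 : a ≠ 1) : #X = 7 * #(X ⊓ C[a]) :=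
  let ⟨b, hb, nb⟩ := ex_b h.sq (by rw [h.cA]; decide) ha; (h.all ha a1 hb nb).1
theorem t1 (ha : a ∈ A) (a1 : a ≠ 1) (hb : b ∈ A) (b1 : b ≠ 1) : ∃ g ∈ X, g * a * g⁻¹ = b :=
  ((f7 h.cA h.n ha a1).2 (h.c7 ha a1).ge).ge ⟨hb, mt mem_bot.1 b1⟩
theorem t2 (ha : a ∈ A) (a1 : a ≠ 1) (hb : b ∈ A) (nb : b ∉ zpowers a) (hc : c ∈ A) (nc : c ∉ zpowers a) :
    ∃ g ∈ X ⊓ C[a], g * b * g⁻¹ = c := ((f6 h.sq h.cA h.n ha a1 hb nb).2 (h.all ha a1 hb nb).2.1.ge).ge ⟨hc, nc⟩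
theorem c4l (hl : l ≤ A) (c4' : #l = 4) : #(X ⊓ C(l)) = 4 * #(X ⊓ C(A)) := by
  obtain ⟨a, ha, a1⟩ := exists_ne_one (H := l) fun e => by simp [e] at c4'
  obtain ⟨b, hb, nb⟩ := ex_b (fun a ha => h.sq a (hl ha)) (by omega) ha
  rw [← eq_of_le_of_card_eq (sup_le (zpowers_le.2 ha) (zpowers_le.2 hb)) ((pl2 h.sq (hl ha) (hl hb) a1 nb).trans c4'.symm)]
  exact (h.all (hl ha) a1 (hl hb) nb).2.2
theorem t3 (hl : l ≤ A) (c4' : #l = 4) (hc : c ∈ A) (nc : c ∉ l) (hd : d ∈ A) (nd : d ∉ l) : ∃ g ∈ X ⊓ C(l), g * c * g⁻¹ = d :=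
  ((f4 h.sq h.cA h.n hl c4' hc nc).2 (h.c4l hl c4').ge).ge ⟨hd, nd⟩
end F3
theorem rk4 (s : ∀ a ∈ A, a * a = 1) (cA : #A = 8) (n : X ≤ N(A)) (sx : ∀ a ∈ X, a * a = 1) : #X ≤ 4 * #(X ⊓ C(A)) := by
  have pA : PG 2 A := PiN.of_card_pow Nat.prime_two (k := 3) cA
  have pX : PG 2 X := PiN.of_elt fun a ha => pg_zpowers (sx a ha) |> piG_zpowers.1
  have aN : ∀ {B}, B ≤ A → A ≤ N(B) := fun l => norms_of_cents (cents_mono (ab_sq s) le_rfl l)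
  obtain ⟨a, ha, a1⟩ := exists_ne_one (pA.meet_cent pX n fun e => by simp [e] at cA)
  have xa : X ≤ C[a] := le_cent1_iff.2 ha.2
  have za := zpowers_le.2 ha.1
  obtain ⟨b, hb, nb, k⟩ := fixcos pA pX za (aN za) (xa.trans (cN a)) n fun e => by
    have := c2 (s a ha.1) a1; rw [← e] at this; omega
  have l1 := sup_le za (zpowers_le.2 hb)
  have c1 := pl2 s ha.1 hb a1 nb
  obtain ⟨c, hc, nc⟩ := ex_out (A := A) (by rw [c1]; omega)
  by_cases e : X ≤ C[b]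
  · have := (f4 s cA n l1 c1 hc nc).1
    rwa [cent_sup, cent_zpowers, cent_zpowers, inf_eq_left.2 (le_inf xa e)] at this
  obtain ⟨g, hg, ng⟩ := SetLike.not_le_iff_exists.1 e
  have k1 := cbd fun x hx => cms (k.2 x hx)
  have k2 : #(X ⊓ C[b]) ≤ #(X ⊓ C[b] ⊓ C[c]) * #(zpowers a) := cbd fun x hx => by_contra fun nx => by
    have m : ∀ y ∈ X, ⁅y, c⁆ ∈ zpowers a ⊔ zpowers b := fun y hy => by
      have nl : y ∈ N(zpowers a ⊔ zpowers b) := mem_norm_of_cj_le (by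
        rw [cj_sup, cj_zpowers, cj_zpowers, cjc (xa hy), cjcm]
        exact sup_le le_sup_left (zpowers_le.2 (mul_mem_sup (cms (k.2 y hy)) (mem_zpowers b))))
      exact two_mul l1 (by omega) (conj_mem_of_norm (n hy) hc) (inv_mem hc)
        (fun e => nc (by simpa [mul_assoc] using conj_mem_of_norm' nl e)) (mt inv_mem_iff.1 nc)
    have e1 : g ∈ C[⁅x, c⁆] := by
      have x1 := cjc (cent_le_cent1 (m g hg) (show x ∈ C(zpowers a ⊔ zpowers b) by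
        rw [cent_sup, cent_zpowers, cent_zpowers]; exact ⟨xa hx.1, hx.2⟩))
      refine of_cjc ?_
      rw [cmc, cjc' (cent_le_cent1 hg (ab_sq sx hx.1)), cjcm g c, cmr, commutatorElement_def x, x1, mul_inv_cancel, one_mul,
        cjc (cent_le_cent1 (l1 (m x hx.1)) (ab_sq s (l1 (m g hg))))]
    have := two_eq (c := ⁅x, c⁆) (D := (zpowers a ⊔ zpowers b) ⊓ C[g]) (le_inf le_sup_left (zpowers_le.2 (mem_cent1_symm.1 (xa hg))))
      inf_le_left (by rw [c1, c2 (s a ha.1) a1]) ⟨m x hx.1, mem_cent1_symm.1 e1⟩ nx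
    exact ng (mem_cent1_symm.1 (this.ge (mem_sup_right (mem_zpowers b))).2)
  have : X ⊓ C[b] ⊓ C[c] ≤ X ⊓ C(A) := fun x hx => ⟨hx.1.1, by
    rw [← pl_gen s cA l1 c1 hc nc, cent_sup, cent_sup, cent_zpowers, cent_zpowers, cent_zpowers]; exact ⟨⟨xa hx.1.1, hx.1.2⟩, hx.2⟩⟩
  have := card_le this
  rw [c2 (s a ha.1) a1] at k1 k2
  omega
end
end H26.JP
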