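import Cfsg.Agent.H26.JP.A1

/-! Facts on the symmetric group of degree five. -/

set_option autoImplicit false
set_option linter.unusedSectionVars false
set_option linter.unusedVariables false
set_option maxRecDepth 100000
open Subgroup H16 H19 H0 H0.TR H20.J4 H26.J4
open scoped commutatorElement
namespace H26.JP
variable {G : Type*} [Group G]
local notation "cj" => H19.cj

open Equiv
abbrev S5 := Perm (Fin 5)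
def u0 : S5 := swap 0 1 * swap 2 3
def u1 : S5 := swap 0 2 * swap 1 3
def s0 : S5 := swap 0 1
def w0 : S5 := swap 0 1 * swap 1 2
def c0 : S5 := swap 0 1 * swap 1 4
def f0 : S5 := swap 0 1 * swap 1 2 * swap 2 3 * swap 3 4
def D8 : Subgroup S5 := C[u0]
def V4 : Subgroup S5 := C[u0] ⊓ C[u1]
def S4 : Subgroup S5 := MulAction.stabilizer S5 (4 : Fin 5)
theorem mD8 {σ : S5} : σ ∈ D8 ↔ σ * u0 = u0 * σ := mem_cent1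
theorem mV4 {σ : S5} : σ ∈ V4 ↔ σ * u0 = u0 * σ ∧ σ * u1 = u1 * σ := and_congr mem_cent1 mem_cent1
theorem mS4 {σ : S5} : σ ∈ S4 ↔ σ 4 = 4 := Iff.rfl
instance : DecidablePred (· ∈ D8) := fun _ => decidable_of_iff _ mD8.symm
instance : DecidablePred (· ∈ V4) := fun _ => decidable_of_iff _ mV4.symm
instance : DecidablePred (· ∈ S4) := fun _ => decidable_of_iff _ mS4.symm
theorem cS5 : Nat.card S5 = 120 := by rw [Nat.card_perm]; simp; rfl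
theorem cD8 : #D8 = 8 := by rw [Nat.card_eq_fintype_card]; decide +kernel
theorem cV4 : #V4 = 4 := by rw [Nat.card_eq_fintype_card]; decide +kernel
theorem cS4 : #S4 = 24 := by rw [Nat.card_eq_fintype_card]; decide +kernel
theorem d3 : ∀ σ : S5, σ ≠ 1 → ∃ τ : S5, (σ⁻¹ * (τ * σ * τ⁻¹)) ^ 3 = 1 ∧ σ⁻¹ * (τ * σ * τ⁻¹) ≠ 1 := by decide +kernel
theorem du : ∀ σ : S5, σ ≠ 1 → σ * σ = 1 → Perm.sign σ = 1 → ∃ τ : S5, τ * u0 * τ⁻¹ = σ := by decide +kernel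
theorem dev : ∀ σ : S5, Perm.sign σ = 1 → σ ^ 3 = 1 ∨ σ ^ 5 = 1 ∨ σ * σ = 1 := by decide +kernel
theorem dV : ∀ σ ∉ V4, σ ^ 3 = 1 ∨ (σ * (w0 * σ * w0⁻¹)) ^ 3 = 1 ∧ σ * (w0 * σ * w0⁻¹) ≠ 1 ∨
    ∃ v ∈ V4, (u0 * (σ * v * σ⁻¹)) ^ 3 = 1 ∧ u0 * (σ * v * σ⁻¹) ≠ 1 := by decide +kernel
theorem dw : ∀ σ : S5, σ ^ 3 = 1 → σ ≠ 1 → ∃ τ : S5, τ * σ * τ⁻¹ = w0 := by decide +kernel
theorem dwu : ∃ τ : S5, w0 * (τ * w0 * τ⁻¹) = u0 := by decide +kernel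
theorem d4 : ∀ σ : S5, σ * u0 * σ⁻¹ ∈ S4 → σ ∈ S4 := by decide +kernel
theorem d4V : ∀ σ ∈ S4, ∀ v ∈ V4, σ * v * σ⁻¹ ∈ V4 := by decide +kernel
theorem d4u : ∀ σ ∉ S4, ∃ v ∈ V4, (u0 * (σ * v * σ⁻¹)) ^ 3 = 1 ∧ u0 * (σ * v * σ⁻¹) ≠ 1 := by decide +kernel
theorem d4d : ∀ σ ∈ S4, σ ∈ D8 ∨ w0 * σ ∈ D8 ∨ w0⁻¹ * σ ∈ D8 := by decide +kernel
theorem d8d : ∀ σ ∈ D8, σ ∈ V4 ∨ s0 * σ ∈ V4 := by decide +kernel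
theorem dVe : ∀ σ ∈ V4, σ = 1 ∨ σ = u0 ∨ σ = w0 * u0 * w0⁻¹ ∨ σ = w0⁻¹ * u0 * w0 := by decide +kernel
theorem dVs : ∀ σ ∈ V4, σ * σ = 1 := by decide +kernel
theorem dVw : ∀ σ ∈ V4, σ * w0 = w0 * σ → σ = 1 := by decide +kernel
theorem d0 : u0 * u0 = 1 ∧ s0 * s0 = 1 ∧ w0 ^ 3 = 1 ∧ c0 ^ 3 = 1 ∧ f0 ^ 5 = 1 ∧ u0 ≠ 1 ∧ s0 ≠ 1 ∧ w0 ≠ 1 ∧ c0 ≠ 1 ∧ f0 ≠ 1 := by
  decide +kernel
theorem d1 : u0 ∈ V4 ∧ u1 ∈ V4 ∧ s0 ∈ D8 ∧ s0 ∉ V4 ∧ w0 ∈ S4 ∧ w0 ∉ D8 ∧ f0 ∉ S4 ∧ s0 ∈ S4 ∧ u0 * u1 ∈ V4 ∧ u1 * u1 = 1 := by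
  decide +kernel
theorem d2 : s0 * w0 * s0⁻¹ = w0⁻¹ ∧ u0 * c0 * u0⁻¹ = c0⁻¹ ∧ u0⁻¹ * (c0 * u0 * c0⁻¹) = c0 ∧ s0⁻¹ * (w0 * s0 * w0⁻¹) = w0 ∧
    (s0 * u1) ^ 2 * (s0 * u1) ^ 2 = 1 ∧ (s0 * u1) ^ 2 ≠ 1 ∧ u1 ≠ 1 ∧ u0 * u1 ≠ 1 := by decide +kernel
theorem VD : V4 ≤ D8 := inf_le_left
theorem DS : D8 ≤ S4 := show ∀ σ ∈ D8, σ ∈ S4 by decide +kernel
theorem nV4 : S4 ≤ N(V4) := fun σ h => mem_norm_of_cj_le fun y hy => let ⟨v, hv, e⟩ := mem_cj'.1 hy; e ▸ d4V σ h v hv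
theorem leV4 {X : Subgroup S5} (h1 : V4 ≤ X) (h2 : w0 ∈ N(X)) (h3 : ∀ σ ∈ X, σ ^ 3 = 1 → σ = 1) : X ≤ V4 := fun σ h =>
  by_contra fun n => by
    rcases dV σ n with e | e | ⟨v, hv, e⟩
    · exact n (h3 σ h e ▸ one_mem _)
    · exact e.2 (h3 _ (mul_mem h (conj_mem_of_norm h2 h)) e.1)
    · exact e.2 (h3 _ (mul_mem (h1 d1.1) (cjm h (h1 hv))) e.1)
theorem nrm3 {X : Subgroup S5} (h : ∀ τ, τ ∈ N(X)) {σ : S5} (h1 : σ ∈ X) (h2 : σ ≠ 1) : w0 ∈ X ∧ u0 ∈ X := by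
  obtain ⟨τ, e1, e2⟩ := d3 σ h2
  obtain ⟨ρ, e⟩ := dw _ e1 e2
  have : w0 ∈ X := e ▸ conj_mem_of_norm (h ρ) (mul_mem (inv_mem h1) (conj_mem_of_norm (h τ) h1))
  obtain ⟨τ, e⟩ := dwu
  exact ⟨this, e ▸ mul_mem this (conj_mem_of_norm (h τ) this)⟩
theorem sylD8 : Syl 2 D8 ⊤ := syl_mk le_top (PiN.of_card_pow Nat.prime_two (k := 3) cD8) (by
  have := card_mul_relIndex (le_top : D8 ≤ ⊤)
  rw [cD8, card_top, cS5] at this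
  omega)
theorem rk5 {X : Subgroup S5} (h : ∀ σ ∈ X, σ * σ = 1) : #X ≤ 4 := by
  have p : PG 2 X := PiN.of_elt fun a ha => pg_zpowers (h a ha) |> piG_zpowers.1
  obtain ⟨g, -, l⟩ := sylD8.scj_le le_top p
  have := card_lt (lt_of_le_of_ne l fun e => d2.2.2.2.2.2.1 (by
    rw [_root_.sq]; exact sq_cj h g _ (e.ge (mul_mem d1.2.2.1 (VD d1.2.1)))))
  rw [card_cj, cD8] at this
  exact pw2 p (n := 2) this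
theorem ev5 {X : Subgroup S5} (h : 2 < #X) : ∃ σ ∈ X, σ ≠ 1 ∧ Perm.sign σ = 1 := by
  have := idx2 (K := X) (L := alternatingGroup (Fin 5)) fun u _ v _ h1 h2 => by
    rw [Perm.mem_alternatingGroup] at *
    rw [map_mul, (Int.units_eq_one_or _).resolve_left h1, (Int.units_eq_one_or _).resolve_left h2]; rfl
  obtain ⟨σ, h1, h2⟩ := exists_ne_one (ne_bot_iff_one_lt_card.2 (show 1 < #(X ⊓ alternatingGroup (Fin 5)) by omega))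
  exact ⟨σ, h1.1, h2, Perm.mem_alternatingGroup.1 h1.2⟩
end H26.JP
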