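import Cfsg.Agent.H26.JP.A2
import Cfsg.Agent.H11.SL

/-! The pentad subgroup: basic data. -/

set_option autoImplicit false
set_option linter.unusedSectionVars false
set_option linter.unusedVariables false
set_option maxRecDepth 100000
open Subgroup H16 H19 H0 H0.TR H20.J4 H26.J4
open scoped commutatorElement
namespace H26.JP
variable {G : Type*} [Group G]
local notation "cj" => H19.cj

theorem card_im [Finite G] {Γ : Type*} [Group Γ] {D H : Subgroup G} (f : D →* Γ) (h : H ≤ D) :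
    #H = #(H ⊓ pre f ⊥) * #(im f H) := by
  rw [inf_comm, ← card_inf_mul_relIndex (pre f ⊥) H, ← relIndex_subgroupOf h, im, ← relIndex_ker]
  congr 2
  exact comap_map_eq_self_of_injective D.subtype_injective _
theorem simple3 : IsSimpleGroup SL3 :=
  have := H11.psl_simple (ι := Fin 3) (F := ZMod 2) (by simp)
  ((QuotientGroup.quotientMulEquivOfEq (card_eq_one.1 (H11.card_center_sl.trans (by simp)))).trans
    QuotientGroup.quotientBot).symm.isSimpleGroup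
/-- the data attached to the pentad subgroup -/
structure KS (L Z R : Subgroup G) (y : G) (P : G → S5) (e : S5 →* G) : Prop where
  cL : #L = 2 ^ 15
  cZ : #Z = 8
  sZ : ∀ a ∈ Z, a * a = 1
  zL : L ⊓ C(L) = Z
  sL : ∀ m ∈ L, m * m ∈ Z
  cmL : ∀ a ∈ L, ∀ b ∈ L, ⁅a, b⁆ ∈ Z
  nL : N(Z) ≤ N(L)
  CL : C(L) ≤ L
  Pm : ∀ a ∈ N(Z), ∀ b ∈ N(Z), P (a * b) = P a * P b
  mR : ∀ g, g ∈ R ↔ g ∈ N(Z) ∧ P g = 1
  eC : ∀ σ, e σ ∈ C(Z)
  Pe : ∀ σ, P (e σ) = σ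
  RC : R ⊓ C(Z) = L
  cR : #R = 168 * 2 ^ 15
  sim : ∀ D, L ≤ D → D ≤ R → R ≤ N(D) → D = L ∨ D = R
  yR : y ∈ R
  y7 : y ^ 7 = 1
  Ly : L ⊓ C[y] = ⊥
  ey : ∀ σ, e σ ∈ C[y]
  L3 : L ⊓ C[e w0] = Z
open Classical in
theorem exists_ks [Finite G] (h2 : Cfsg.IsCharacteristicTwoType G) {L Z : Subgroup G}
    (hL : L = (Cfsg.pCore 2 N(Z)).map N(Z).subtype) (hZ : Z = (center L).map L.subtype) (hs : Cfsg.IsSpecial 2 L)
    (cL : #L = 2 ^ 15) (eZ : Cfsg.IsElementaryAbelian 2 Z) (cZ : #Z = 8) [(L.subgroupOf N(Z)).Normal]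
    (φ : N(Z) ⧸ L.subgroupOf N(Z) ≃* S5 × SL3) (hxy : ∀ x y : G, x ∈ N(Z) → y ∈ N(Z) → orderOf x = 3 → orderOf y = 7 →
      x * y = y * x → L ⊓ C[x] = Z ∧ L ⊓ C[y] = ⊥) : ∃ R y P e, KS L Z R y P e := by
  have : Fact (Nat.Prime 2) := ⟨Nat.prime_two⟩
  have : Fact (Nat.Prime 7) := ⟨by norm_num⟩
  have zL : L ⊓ C(L) = Z := (center_map_eq L).symm.trans hZ.symm
  have mZ : ∀ a : L, a ∈ center L → (a : G) ∈ Z := fun a h => hZ ▸ mem_map_of_mem _ h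
  have eL : L = Oc {2} N(Z) := hL.trans (pCore_map_eq Nat.prime_two _)
  have LK : L ≤ N(Z) := eL ▸ Oc_le _ _
  have nL : N(Z) ≤ N(L) := eL ▸ Oc_norm _ _
  have ZL : Z ≤ L := zL ▸ inf_le_left
  have LC : L ≤ C(Z) := cents_symm (zL ▸ inf_le_right)
  have Z1 : Z ≠ ⊥ := fun e => by simp [e] at cZ
  have pZ : PG 2 Z := PiN.of_card_pow Nat.prime_two (k := 3) cZ
  have CL : C(L) ≤ L := fun c hc => by
    have m := cent_le_norm _ (cent_mono ZL hc)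
    exact hL ▸ mem_map_of_mem _ (h2.2 Z pZ.isPGroup Z1 (x := ⟨c, m⟩) (mem_centralizer_iff.2 fun a ha => Subtype.ext
      (mem_cent.1 hc a (hL ▸ mem_map_of_mem _ ha))))
  let π : N(Z) →* S5 × SL3 := φ.toMonoidHom.comp (QuotientGroup.mk' _)
  have πs : Function.Surjective π := φ.surjective.comp (QuotientGroup.mk'_surjective _)
  have πk : ∀ k : N(Z), π k = 1 ↔ (k : G) ∈ L := fun k => by simp [π, mem_subgroupOf]
  let p : N(Z) →* S5 := (MonoidHom.fst _ _).comp π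
  let f : N(Z) →* SL3 := (MonoidHom.snd _ _).comp π
  have mR : ∀ k : N(Z), (k : G) ∈ pre p ⊥ ↔ p k = 1 := fun k => coe_mem_pre.trans mem_bot
  have mL : ∀ k : N(Z), p k = 1 → f k = 1 → (k : G) ∈ L := fun k h1 h2 => (πk k).1 (Prod.ext h1 h2)
  have LR : L ≤ pre p ⊥ := fun m hm => (mR ⟨m, LK hm⟩).2 (congrArg Prod.fst ((πk _).2 hm))
  have fs : ∀ A : SL3, ∃ r : N(Z), p r = 1 ∧ f r = A := fun A => let ⟨r, e⟩ := πs (1, A); ⟨r, congrArg Prod.fst e, congrArg Prod.snd e⟩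
  have iR : im f (pre p ⊥) = ⊤ := top_le_iff.1 fun A _ => let ⟨r, h1, h2⟩ := fs A; h2 ▸ mem_im_of ((mR r).2 h1)
  have cR : #(pre p ⊥) = 168 * 2 ^ 15 := by
    rw [card_im f (pre_le _ _), iR, card_top, card_SL3, mul_comm, ← cL, show pre p ⊥ ⊓ pre f ⊥ = L from le_antisymm
      (fun g hg => mL ⟨g, pre_le _ _ hg.1⟩ ((mR _).1 hg.1) (mem_bot.1 (coe_mem_pre.1 hg.2))) (le_inf LR fun m hm =>
        (coe_mem_pre (x := ⟨m, LK hm⟩)).2 (congrArg Prod.snd ((πk _).2 hm)))]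
  have cK : #N(Z) = 168 * 2 ^ 15 * 120 := by
    rw [card_im p le_rfl, inf_eq_right.2 (pre_le _ _), cR, ← cS5, show im p N(Z) = ⊤ from top_le_iff.1 fun σ _ =>
      let ⟨r, e⟩ := πs (σ, 1); H19.mem_im.2 ⟨r, r.2, congrArg Prod.fst e⟩, card_top]
  have nR : N(Z) ≤ N(pre p ⊥) := norms_pre le_rfl (norm_bot (G := S5) ▸ le_top)
  have sim : ∀ D, L ≤ D → D ≤ pre p ⊥ → pre p ⊥ ≤ N(D) → D = L ∨ D = pre p ⊥ := fun D h1 h2 h3 => by
    have n := (iR ▸ (NormalIn.im ⟨h2, h3⟩ f)).normal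
    refine (simple3.eq_bot_or_eq_top_of_normal _ n).imp (fun e => le_antisymm (fun d hd => mL ⟨d, pre_le _ _ (h2 hd)⟩
      ((mR _).1 (h2 hd)) (mem_bot.1 (e.le (mem_im_of hd)))) h1) fun e => le_antisymm h2 fun r hr => ?_
    obtain ⟨d, hd, e⟩ := H19.mem_im.1 (e.ge (mem_top (f ⟨r, pre_le _ _ hr⟩)))
    exact (D.mul_mem_cancel_left (inv_mem hd)).1 (h1 (mL (d⁻¹ * ⟨r, pre_le _ _ hr⟩) ((mR _).1 (mul_mem (inv_mem (h2 hd)) hr))
      (by rw [map_mul, map_inv, e, inv_mul_cancel])))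
  obtain ⟨η, oη⟩ := exists_prime_orderOf_dvd_card' (G := SL3) 7 (by rw [card_SL3]; decide)
  obtain ⟨k, ek⟩ := πs (w0, η)
  have η7 : η ^ 7 = 1 := oη ▸ pow_orderOf_eq_one η
  have k1 : ((k : G) ^ 2 ^ 15) ^ 21 = 1 := by
    rw [pow_right_comm, ← cL]
    exact orderOf_dvd_iff_pow_eq_one.1 (orderOf_dvd_card' ((πk (k ^ 21)).1 (by
      rw [map_pow, ek, Prod.pow_mk, show 21 = 3 * 7 from rfl, pow_mul, d0.2.2.1, pow_mul' η, η7]; simp [Prod.ext_iff])))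
  have e8 : π (k ^ 2 ^ 15) = (w0 ^ 2, η) := by
    rw [map_pow, ek, Prod.pow_mk, pow_eq_pow_mod _ d0.2.2.1, pow_eq_pow_mod _ η7]; norm_num
  generalize hk : k ^ 2 ^ 15 = j at e8
  rw [show (k : G) ^ 2 ^ 15 = j from hk ▸ rfl] at k1
  have ey : π (j ^ 3) = (1, η ^ 3) := by rw [map_pow, e8, Prod.pow_mk, pow_right_comm, d0.2.2.1, one_pow]
  have yR := (mR (j ^ 3)).2 (congrArg Prod.fst ey)
  have y7 : ((j ^ 3 : N(Z)) : G) ^ 7 = 1 := by rw [coe_pow, ← pow_mul, k1]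
  have oy : orderOf ((j ^ 3 : N(Z)) : G) = 7 := orderOf_eq_prime y7 fun e => by
    rw [show j ^ 3 = 1 from Subtype.ext e, map_one] at ey
    exact absurd (oη ▸ orderOf_dvd_of_pow_eq_one (congrArg Prod.snd ey).symm) (by decide)
  have Ly := (hxy _ _ (j ^ 7).2 (j ^ 3).2 (o3 (by rw [coe_pow, ← pow_mul, k1]) fun e => by
    have := congrArg π (show j ^ 7 = 1 from Subtype.ext e)
    rw [map_pow, e8, map_one, Prod.pow_mk, Prod.mk_eq_one] at this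
    exact (by decide +kernel : (w0 ^ 2) ^ 7 ≠ 1) this.1) oy (by rw [coe_pow, coe_pow, ← pow_add, ← pow_add])).2
  generalize ((j ^ 3 : N(Z)) : G) = y at yR y7 oy Ly
  have RC : pre p ⊥ ⊓ C(Z) = L := (sim _ (le_inf LR LC) inf_le_left (norms_inf le_normalizer
    ((pre_le _ _).trans (norm_le_norm_cent _)))).resolve_right fun e => Z1 (le_bot_iff.1 (Ly ▸ le_inf ZL (le_cent1_iff.2 (e.ge yR).2)))
  have CK := cent_le_norm Z
  have iC : im p C(Z) = ⊤ := by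
    have e1 := card_im p CK
    have e2 := f168 (ea_iff.1 eZ) cZ le_rfl
    rw [inf_eq_right.2 CK, cK, e1, inf_comm, RC, cL] at e2
    exact eq_top_of_le_card _ (by rw [cS5]; omega)
  let q : (C(Z) ⊓ C[y] : Subgroup G) →* S5 := p.comp (inclusion (inf_le_left.trans CK))
  have qb : Function.Bijective q := ⟨(injective_iff_map_eq_one q).2 fun a e => Subtype.ext (mem_bot.1 (Ly.le
    ⟨RC.le ⟨(mR ⟨a, CK a.2.1⟩).2 e, a.2.1⟩, a.2.2⟩)), fun σ => by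
      obtain ⟨c, hc, rfl⟩ := H19.mem_im.1 (iC.ge (mem_top σ))
      have l := zpowers_le.2 yR
      obtain ⟨n, hn, k⟩ := exists_mul_mem_cent (k := (c : G)) (l.trans ((pre_le _ _).trans nL)) (by
        rw [cL, Nat.card_zpowers, oy]; norm_num) (.inl (sol_zpowers y)) fun a ha => RC.le ⟨cms (cmN (nR c.2) (l ha)),
          cmN (norm_le_norm_cent _ (pre_le _ _ (l ha))) hc⟩
      refine ⟨⟨n * c, mul_mem (LC hn) hc, cent_zpowers y ▸ k⟩, ?_⟩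
      exact (map_mul p ⟨n, LK hn⟩ c).trans (by rw [(mR ⟨n, LK hn⟩).1 (LR hn), one_mul])⟩
  let e := (MulEquiv.ofBijective q qb).symm
  have pe : ∀ σ, p ⟨e σ, CK (e σ).2.1⟩ = σ := fun σ => (MulEquiv.ofBijective q qb).apply_symm_apply σ
  refine ⟨pre p ⊥, y, fun g => if h : g ∈ N(Z) then p ⟨g, h⟩ else 1, (Subgroup.subtype _).comp e.toMonoidHom, cL, cZ, ea_iff.1 eZ, zL,
    fun m hm => _root_.sq m ▸ mZ (⟨m, hm⟩ ^ 2) (hs.2.1 ▸ H4.pow_mem_frattini hs.1 _), fun a ha b hb => mZ ⁅(⟨a, ha⟩ : L), ⟨b, hb⟩⁆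
      (hs.2.2.le (commutator_mem_commutator (mem_top _) (mem_top _))), nL, CL, fun a ha b hb => ?_, fun g => ⟨fun h => ⟨pre_le _ _ h, ?_⟩,
      fun h => ?_⟩, fun σ => (e σ).2.1, fun σ => (dif_pos (CK (e σ).2.1)).trans (pe σ), RC, cR, sim, yR, y7, Ly, fun σ => (e σ).2.2,
      (hxy _ _ (CK (e w0).2.1) (pre_le _ _ yR) (o3 ?_ fun k => d0.2.2.2.2.2.2.2.1 (e.map_eq_one_iff.1 (Subtype.ext k))) oy
      (mem_cent1.1 (e w0).2.2)).1⟩
  · rw [dif_pos ha, dif_pos hb, dif_pos (mul_mem ha hb), ← map_mul]; rfl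
  · exact (dif_pos (pre_le _ _ h)).trans ((mR ⟨g, _⟩).1 h)
  · exact (mR ⟨g, h.1⟩).2 ((dif_pos h.1).symm.trans h.2)
  · rw [← coe_pow, ← map_pow, d0.2.2.1, map_one, coe_one]
end H26.JP
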