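import Cfsg.Agent.H26.JP.B0

/-! The pentad subgroup: action on the central quotient. -/

set_option autoImplicit false
set_option linter.unusedSectionVars false
set_option linter.unusedVariables false
set_option maxRecDepth 100000
open Subgroup H16 H19 H0 H0.TR H20.J4 H26.J4
open scoped commutatorElement
namespace H26.JP
variable {G : Type*} [Group G]
local notation "cj" => H19.cj

theorem cm_cop [Finite G] {B : Subgroup G} {g m : G} {n : ℕ} (p : PG 2 B) (hg : g ∈ N(B)) (e : g ^ n = 1) (o : Odd n)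
    (h : m ∈ cm B {g}) : ∃ b ∈ B, b * m ∈ C[g] := by
  obtain ⟨i, c⟩ := p.exists_card
  rw [← cent_zpowers]
  exact exists_mul_mem_cent (zpowers_le.2 hg) (by
    rw [c, Nat.card_zpowers]; exact ((Nat.coprime_two_left.2 o).coprime_dvd_right (orderOf_dvd_of_pow_eq_one e)).pow_left _)
    (.inl (sol_zpowers g)) fun a ha => cms (mem_cm1.1 (cm_zp hg h ha)).2
namespace KS
variable [Finite G] {L Z R : Subgroup G} {y : G} {P : G → S5} {e : S5 →* G} (h : KS L Z R y P e)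
  {A B D I X Y l : Subgroup G} {a b c d g k m r z : G} {σ τ : S5}
include h
local notation "K" => N(Z)
local notation "CL" g:max => (L ⊓ cm Z {g} : Subgroup G)
local notation "L0" => (L ⊓ cm Z {e u0} : Subgroup G)
local notation "W" => (L ⊓ cm Z {e u0} ⊓ cm Z {e s0} : Subgroup G)
local notation "V" => (L ⊓ cm Z {e u0} ⊔ Subgroup.map e V4 : Subgroup G)
local notation "Q" z:max => (R ⊓ cm (zpowers z) Z : Subgroup G)
local notation "L2" z:max => (L ⊓ cm Z (R ⊓ cm (zpowers z) Z : Subgroup G) : Subgroup G)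
local notation "Il" l:max => (L ⊓ cm l L : Subgroup G)
theorem ZL : Z ≤ L := h.zL ▸ inf_le_left
theorem LC : L ≤ C(Z) := cents_symm (h.zL ▸ inf_le_right)
theorem LK : L ≤ K := h.LC.trans (cent_le_norm _)
theorem RK : R ≤ K := fun g hg => ((h.mR g).1 hg).1
theorem LR : L ≤ R := h.RC ▸ inf_le_left
theorem eK (σ : S5) : e σ ∈ K := cent_le_norm _ (h.eC σ)
theorem PR (hr : r ∈ R) : P r = 1 := ((h.mR r).1 hr).2
theorem PL (hr : r ∈ L) : P r = 1 := h.PR (h.LR hr)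
theorem Pi (ha : a ∈ K) : P a⁻¹ = (P a)⁻¹ := eq_inv_of_mul_eq_one_left (by
  rw [← h.Pm _ (inv_mem ha) _ ha, inv_mul_cancel, h.PR (one_mem _)])
theorem Pc (ha : a ∈ K) (hb : b ∈ K) : P (a * b * a⁻¹) = P a * P b * (P a)⁻¹ := by
  rw [h.Pm _ (mul_mem ha hb) _ (inv_mem ha), h.Pm _ ha _ hb, h.Pi ha]
theorem Pp (ha : a ∈ K) (n : ℕ) : P (a ^ n) = P a ^ n := by
  induction n with
  | zero => simpa using h.PR (one_mem _)
  | succ n ih => rw [pow_succ, h.Pm _ (pow_mem ha n) _ ha, ih, pow_succ]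
/-- the projection onto the symmetric group -/
def ph : K →* S5 := MonoidHom.mk' (fun g => P g) fun a b => h.Pm _ a.2 _ b.2
theorem mph (hX : X ≤ K) : σ ∈ im h.ph X ↔ ∃ a ∈ X, P a = σ :=
  H19.mem_im.trans ⟨fun ⟨a, h1, h2⟩ => ⟨a, h1, h2⟩, fun ⟨a, h1, h2⟩ => ⟨⟨a, hX h1⟩, h1, h2⟩⟩
theorem cph (hX : X ≤ K) : #X = #(X ⊓ R) * #(im h.ph X) := by
  rw [card_im h.ph hX, show pre h.ph ⊥ = R from Subgroup.ext fun g => by
    rw [H19.mem_pre, h.mR]; exact ⟨fun ⟨a, b⟩ => ⟨a, b⟩, fun ⟨a, b⟩ => ⟨a, b⟩⟩]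
theorem nR : K ≤ N(R) := fun k hk => mem_norm_of_cj_le fun y hy => by
  obtain ⟨r, hr, rfl⟩ := mem_cj'.1 hy
  exact (h.mR _).2 ⟨cjm hk (h.RK hr), by rw [h.Pc hk (h.RK hr), h.PR hr, mul_one, mul_inv_cancel]⟩
theorem pL : PG 2 L := PiN.of_card_pow Nat.prime_two h.cL
theorem pZ : PG 2 Z := h.pL.of_le h.ZL
theorem Z1 : Z ≠ ⊥ := fun e => by simpa [e] using h.cZ
theorem LZ : L ≠ Z := fun e => by have := h.cL; rw [e, h.cZ] at this; omega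
theorem e1 (k : e σ ∈ R) : σ = 1 := (h.Pe σ).symm.trans (h.PR k)
theorem cmRC (hr : r ∈ R) (hc : c ∈ C(Z)) : ⁅r, c⁆ ∈ L :=
  h.RC.le ⟨cms (cmN (h.nR (cent_le_norm _ hc)) hr), cmN (norm_le_norm_cent _ (h.RK hr)) hc⟩
theorem dec (hk : k ∈ K) : k * (e (P k))⁻¹ ∈ R := (h.mR _).2 ⟨mul_mem hk (inv_mem (h.eK _)), by
  rw [h.Pm _ hk _ (inv_mem (h.eK _)), h.Pi (h.eK _), h.Pe, mul_inv_cancel]⟩
theorem decC (hk : k ∈ C(Z)) : k * (e (P k))⁻¹ ∈ L := h.RC.le ⟨h.dec (cent_le_norm _ hk), C(Z).mul_mem hk (inv_mem (h.eC _))⟩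
theorem nA (h1 : Z ≤ A) (h2 : A ≤ L) : L ≤ N(A) :=
  norms_of_commg_le (commutator_le.2 fun a ha b hb => h1 (h.cmL a (h2 ha) b hb))
theorem nK (h1 : R ≤ N(A)) (h2 : C(Z) ≤ N(A)) : K ≤ N(A) := fun k hk => by
  simpa using mul_mem (h1 (h.dec hk)) (h2 (h.eC (P k)))
theorem LL : L ≤ cm Z L := fun m hm => ⟨h.LK hm, h.cmL m hm⟩
theorem ZCL (hg : g ∈ K) : Z ≤ CL g := le_inf h.ZL (le_cm1 hg)
theorem clm (hl : a ∈ L) : CL (a * g) = CL g := by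
  have k : ∀ a g, a ∈ L → CL g ≤ CL (a * g) := fun a g hl m hm => ⟨hm.1, cm_mul1 (h.LK hl) (cm_one hl (h.LL hm.1)) hm.2⟩
  exact le_antisymm (by simpa using k a⁻¹ (a * g) (inv_mem hl)) (k a g hl)
theorem clC (hc : c ∈ C(Z)) : CL c = CL (e (P c)) := by rw [← h.clm (g := e (P c)) (h.decC hc), inv_mul_cancel_right]
theorem cjCL (hk : k ∈ K) : cj k (CL g) = CL (k * g * k⁻¹) := by
  rw [cj_inf, cj_cm1, cj_of_mem_norm hk, cj_of_mem_norm (h.nL hk)]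
theorem nCL (hk : k ∈ K) (e : ⁅k, g⁆ ∈ L) : k ∈ N(CL g) := by rw [mem_norm_iff_cj, h.cjCL hk, cjcm, h.clm e]
theorem CnCL (hr : r ∈ R) : C(Z) ≤ N(CL r) := fun c hc => h.nCL (cent_le_norm _ hc) (cms (h.cmRC hr hc))
theorem RnCL (hc : c ∈ C(Z)) : R ≤ N(CL c) := fun r hr => h.nCL (h.RK hr) (h.cmRC hr hc)
theorem iph (hX : ∀ σ, e σ ∈ X) (l : X ≤ K) : #(im h.ph X) = 120 := by
  rw [show im h.ph X = ⊤ from top_le_iff.1 fun σ _ => (h.mph l).2 ⟨_, hX σ, h.Pe σ⟩, card_top, cS5]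
theorem cK : #K = 168 * 2 ^ 15 * 120 := by rw [h.cph le_rfl, inf_eq_right.2 h.RK, h.cR, h.iph h.eK le_rfl]
theorem cC : #C(Z) = 2 ^ 15 * 120 := by rw [h.cph (cent_le_norm _), inf_comm, h.RC, h.cL, h.iph h.eC (cent_le_norm _)]
theorem F3Z : F3 Z R := ⟨h.sZ, h.cZ, h.RK, by rw [h.RC, h.cR, h.cL]⟩
theorem cop {n : ℕ} (hg : g ∈ K) (e : g ^ n = 1) (o : Odd n) (k : L ⊓ C[g] ≤ Z) : CL g = Z := le_antisymm (fun m hm => by
  obtain ⟨b, hb, e⟩ := cm_cop h.pZ hg e o hm.2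
  exact (Z.mul_mem_cancel_left hb).1 (k ⟨mul_mem (h.ZL hb) hm.1, e⟩)) (h.ZCL hg)
theorem ep {n : ℕ} (k : σ ^ n = 1) : e σ ^ n = 1 := by rw [← map_pow, k, map_one]
theorem ec (σ τ : S5) : e σ * e τ * (e σ)⁻¹ = e (σ * τ * σ⁻¹) := by simp
theorem C3 (h1 : σ ^ 3 = 1) (h2 : σ ≠ 1) : L ⊓ C[e σ] = Z := by
  obtain ⟨τ, k⟩ := dw σ h1 h2
  rw [← cj_inj (g := e τ), cj_inf, cj_cent1, h.ec, k, cj_of_mem_norm (h.nL (h.eK τ)), h.L3, cj_of_mem_norm (h.eK τ)]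
theorem CL3 (h1 : σ ^ 3 = 1) (h2 : σ ≠ 1) : CL (e σ) = Z := h.cop (h.eK σ) (h.ep h1) (by decide) (h.C3 h1 h2).le
theorem CLy : CL y = Z := h.cop (h.RK h.yR) h.y7 (by decide) (h.Ly ▸ bot_le)
theorem exA (h1 : Z ≤ A) (h2 : A ≤ L) : ∃ i, 3 ≤ i ∧ i ≤ 15 ∧ #A = 2 ^ i := by
  obtain ⟨i, e⟩ := (h.pL.of_le h2).exists_card
  have := card_le h1
  have := card_le h2
  rw [e, h.cL, h.cZ] at *
  exact ⟨i, (Nat.pow_le_pow_iff_right (by decide : 1 < 2)).1 ‹_›, (Nat.pow_le_pow_iff_right (by decide : 1 < 2)).1 ‹_›, rfl⟩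
theorem fixZ {p : ℕ} (hp : p.Prime) (h1 : Z ≤ A) (h2 : A ≤ L) (hg : g ∈ K) (n : g ∈ N(A)) (e : g ^ p = 1) (k : CL g = Z) :
    #A % p = 8 % p := by
  have := fixq hp h1 (h2.trans h.LK) hg n (e ▸ one_mem _)
  rwa [show A ⊓ cm Z {g} = Z from le_antisymm ((inf_le_inf_right _ h2).trans k.le) (le_inf h1 (le_cm1 hg)), h.cZ] at this
theorem C5 (h1 : σ ^ 5 = 1) (h2 : σ ≠ 1) : CL (e σ) = Z := by
  refine h.cop (h.eK σ) (h.ep h1) (by decide) ?_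
  have l : Z ≤ L ⊓ C[e σ] := le_inf h.ZL (le_cent1_iff.2 (h.eC σ))
  obtain ⟨i, i1, i2, c⟩ := h.exA l inf_le_left
  have k1 := h.fixZ (by norm_num) l inf_le_left (h.RK h.yR) (norms_inf (zpowers_le.2 (h.nL (h.RK h.yR))) (zpowers_le.2
    (le_normalizer (mem_cent1_symm.1 (h.ey σ)))) (mem_zpowers y)) h.y7 h.CLy
  have k2 := fix_sub (by norm_num) (h.ep h1) (h.nL (h.eK σ))
  have k3 : i ≠ 15 := fun k => h2 (h.e1 (h.LR (h.CL (le_cent1_iff.1 ((eq_of_le_of_card_eq inf_le_left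
    (by rw [c, k, h.cL])).ge.trans inf_le_right)))))
  refine (eq_of_le_of_card_eq l ?_).ge
  rw [c, h.cL] at k2
  rw [c] at k1 ⊢
  rw [h.cZ]
  interval_cases i <;> simp_all [Nat.ModEq]
theorem expC (h1 : Z ≤ A) (h2 : A ≤ L) (n : C(Z) ≤ N(A)) : #A = 2 ^ 3 ∨ #A = 2 ^ 7 ∨ #A = 2 ^ 11 ∨ #A = 2 ^ 15 := by
  obtain ⟨i, i1, i2, c⟩ := h.exA h1 h2
  have := h.fixZ (by norm_num) h1 h2 (h.eK _) (n (h.eC _)) (h.ep d0.2.2.2.2.1) (h.C5 d0.2.2.2.2.1 d0.2.2.2.2.2.2.2.2.2)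
  rw [c] at this ⊢
  interval_cases i <;> simp_all
theorem expy (h1 : Z ≤ A) (h2 : A ≤ L) (n : y ∈ N(A)) : #A % 7 = 1 :=
  h.fixZ (by norm_num) h1 h2 (h.RK h.yR) n h.y7 h.CLy
theorem expw (h1 : Z ≤ A) (h2 : A ≤ L) (n : e w0 ∈ N(A)) : #A % 3 = 2 :=
  h.fixZ (by norm_num) h1 h2 (h.eK _) n (h.ep d0.2.2.1) (h.CL3 d0.2.2.1 d0.2.2.2.2.2.2.2.1)
theorem eqZ (h1 : Z ≤ A) (c : #A = 2 ^ 3) : A = Z := (eq_of_le_of_card_eq h1 (h.cZ.trans c.symm)).symm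
theorem eqL (h1 : A ≤ L) (c : #A = 2 ^ 15) : A = L := eq_of_le_of_card_eq h1 (c.trans h.cL.symm)
theorem expK (h1 : Z ≤ A) (h2 : A ≤ L) (n : C(Z) ≤ N(A)) (n' : y ∈ N(A)) : A = Z ∨ A = L := by
  have := h.expy h1 h2 n'
  rcases h.expC h1 h2 n with c | c | c | c
  exacts [.inl (h.eqZ h1 c), by omega, by omega, .inr (h.eqL h2 c)]
theorem exp6 (h1 : Z ≤ A) (h2 : A ≤ L) (n : e w0 ∈ N(A)) (n' : y ∈ N(A)) : A = Z ∨ #A = 2 ^ 9 ∨ A = L := by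
  obtain ⟨i, i1, i2, c⟩ := h.exA h1 h2
  have := h.expy h1 h2 n'
  have := h.expw h1 h2 n
  have : i = 3 ∨ i = 9 ∨ i = 15 := by rw [c] at *; interval_cases i <;> simp_all
  rcases this with rfl | rfl | rfl
  exacts [.inl (h.eqZ h1 c), .inr (.inl c), .inr (.inr (h.eqL h2 c))]
theorem RI (h1 : Z ≤ I) (h2 : I ≤ L) (n : R ≤ N(I)) (k : I ≠ Z) : R ⊓ cm Z I = L :=
  (h.sim _ (le_inf h.LR (h.LL.trans (cm_anti h2))) inf_le_left (norms_inf le_normalizer (cm_nms h.RK n))).resolve_right fun e =>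
    k (le_antisymm (fun m hm => h.CLy.le ⟨h2 hm, cm_sy (cm_one hm (e.ge h.yR).2) (h.LK (h2 hm))⟩) h1)
theorem UB0 (h1 : Z ≤ A) (h2 : A ≤ L) (ha : a ∈ K) (hc : c ∈ K) (n : c ∈ N(A)) (k : CL (a⁻¹ * (c * a * c⁻¹)) = Z) :
    #(A ⊓ cm Z {a}) * #(A ⊓ cm Z {a}) ≤ #A * 8 := by
  have l := le_inf h1 (le_cm1 ha)
  have := infbd (inf_le_left : A ⊓ cm Z {a} ≤ A) (cj_le_of_mem_norm n inf_le_left : cj c (A ⊓ cm Z {a}) ≤ A)
    ((cj_le_of_mem_norm n inf_le_left).trans (h2.trans (h.nA l (inf_le_left.trans h2))))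
  rw [card_cj] at this
  refine this.trans (Nat.mul_le_mul_left _ (h.cZ ▸ card_le fun m hm => k.le ⟨h2 hm.1.1, cm_mul1 (inv_mem ha)
    (cm_zp ha hm.1.2 (inv_mem (mem_zpowers a))) ?_⟩))
  have := cj_mono c inf_le_right hm.2
  rwa [cj_cm1, cj_of_mem_norm hc] at this
theorem UB (h1 : Z ≤ A) (h2 : A ≤ L) (n : C(Z) ≤ N(A)) (ha : a ∈ K) (k : P a ≠ 1) :
    #(A ⊓ cm Z {a}) * #(A ⊓ cm Z {a}) ≤ #A * 8 := by
  obtain ⟨τ, e1, e2⟩ := d3 _ k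
  refine h.UB0 h1 h2 ha (h.eK τ) (n (h.eC τ)) ?_
  rw [h.clC (by simpa [commutatorElement_def, mul_assoc] using cmN (norm_le_norm_cent _ (inv_mem ha)) (h.eC τ)),
    h.Pm _ (inv_mem ha) _ (cjm (h.eK τ) ha), h.Pc (h.eK τ) ha, h.Pi ha, h.Pe, h.CL3 e1 e2]
theorem LB (h1 : Z ≤ A) (h2 : A ≤ L) (ha : a ∈ K) (n : a ∈ N(A)) (k : a * a = 1) :
    #A * 8 ≤ #(A ⊓ cm Z {a}) * #(A ⊓ cm Z {a}) :=
  h.cZ ▸ lbq h1 (h2.trans h.LK) (fun m hm => h.sL m (h2 hm)) ha n (k ▸ one_mem _)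
theorem es (k : σ * σ = 1) : e σ * e σ = 1 := by rw [← map_mul, k, map_one]
theorem INu (h1 : Z ≤ A) (h2 : A ≤ L) (n : C(Z) ≤ N(A)) : #(A ⊓ cm Z {e u0}) * #(A ⊓ cm Z {e u0}) = #A * 8 :=
  le_antisymm (h.UB h1 h2 n (h.eK _) (by rw [h.Pe]; exact d0.2.2.2.2.2.1)) (h.LB h1 h2 (h.eK _) (n (h.eC _)) (h.es d0.1))
theorem INs (h1 : Z ≤ A) (h2 : A ≤ L) (n : e w0 ∈ N(A)) (n' : e s0 ∈ N(A)) :
    #(A ⊓ cm Z {e s0}) * #(A ⊓ cm Z {e s0}) = #A * 8 :=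
  le_antisymm (h.UB0 h1 h2 (h.eK _) (h.eK _) n (by
    rw [h.ec, ← map_inv, ← map_mul, d2.2.2.2.1, h.CL3 d0.2.2.1 d0.2.2.2.2.2.2.2.1])) (h.LB h1 h2 (h.eK _) n' (h.es d0.2.1))
theorem BD9 (ha : a ∈ K) (k : P a ≠ 1) : #(CL a) ≤ 2 ^ 9 := by
  have := h.UB h.ZL le_rfl ((cent_le_norm _).trans h.nL) ha k
  rw [h.cL] at this
  nlinarith
theorem FA : cm Z L = L := le_antisymm (fun a ha => (h.RI h.ZL le_rfl (h.RK.trans h.nL) h.LZ).le ⟨(h.mR a).2 ⟨ha.1, by_contra fun k => by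
  have := h.BD9 ha.1 k
  rw [inf_eq_left.2 fun m hm => cm_sy (cm_one hm ha) (h.LK hm), h.cL] at this
  omega⟩, ha⟩) h.LL
theorem BD (ha : a ∈ K) (k : a ∉ L) : #(CL a) ≤ 2 ^ 11 := by
  by_cases e : P a = 1
  · rcases h.expC (h.ZCL ha) inf_le_left (h.CnCL ((h.mR a).2 ⟨ha, e⟩)) with c | c | c | c
    exacts [by omega, by omega, by omega, (k (h.FA.le ⟨ha, fun m hm => cms (mem_cm1.1 ((h.eqL inf_le_left c).ge hm).2).2⟩)).elim]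
  · exact (h.BD9 ha e).trans (by norm_num)
end KS
end H26.JP
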