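import Cfsg.Agent.H26.JP.B1

/-! The pentad subgroup: the elementary abelian subgroup of order 2^11. -/

set_option autoImplicit false
set_option linter.unusedSectionVars false
set_option linter.unusedVariables false
set_option maxRecDepth 100000
open Subgroup H16 H19 H0 H0.TR H20.J4 H26.J4
open scoped commutatorElement
namespace H26.JP
variable {G : Type*} [Group G]
local notation "cj" => H19.cj

theorem cj_map {Γ : Type*} [Group Γ] (f : Γ →* G) (a : Γ) (X : Subgroup Γ) : cj (f a) (X.map f) = (cj a X).map f := by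
  ext g
  simp only [mem_cj', mem_map]
  exact ⟨by rintro ⟨_, ⟨x, hx, rfl⟩, rfl⟩; exact ⟨_, ⟨x, hx, rfl⟩, by simp⟩, by
    rintro ⟨_, ⟨x, hx, rfl⟩, rfl⟩; exact ⟨_, ⟨x, hx, rfl⟩, by simp⟩⟩
theorem sqe {a b : ℕ} (h : a * a = b * b) : a = b := Nat.mul_self_inj.1 h
theorem two_le [Finite G] {A B : Subgroup G} {c : G} (h : A ≤ B) (hc : c ∈ B) (n : c ∉ A) : 2 * #A ≤ #B := by
  obtain ⟨i, hi⟩ := card_dvd h
  have := card_lt (lt_of_le_of_ne h fun e => n (e ▸ hc))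
  have := card_pos A
  rw [hi] at *
  rcases i with _ | _ | i <;> nlinarith
theorem sq_cm {A B : Subgroup G} (h : ∀ a ∈ A, a * a ∈ B) {a b : G} (ha : a ∈ A) (hb : b ∈ A) : ⁅a, b⁆ ∈ B := by
  have := mul_mem (mul_mem (h a ha) (h _ (mul_mem (inv_mem ha) hb))) (h _ (inv_mem hb))
  rwa [show a * a * (a⁻¹ * b * (a⁻¹ * b)) * (b⁻¹ * b⁻¹) = ⁅a, b⁆ by simp only [commutatorElement_def]; group] at this
theorem orbq [Finite G] {A B X : Subgroup G} {m : G} {n : ℕ} (h1 : B ≤ X) (h2 : X ≤ N(B)) (h3 : X ≤ N(A)) (h4 : B ≤ A) (h5 : A ≤ N(B))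
    (hm : m ∈ A) (nm : m ∉ B) (c : #A = #B * (n + 1)) : #X ≤ n * #(X ⊓ cm B {m}) := by
  have := (orb (cl_diff (quo_norms h3) (norm_bot (G := Quo B) ▸ le_top) ((qmem h4 h5 (m := ⟨m, h5 hm⟩)).2 hm)
    (fun e => nm (qmk_eq_one.1 (mem_bot.1 e)))) (n := n) (by
      rw [ncd bot_le, card_bot, Nat.eq_of_mul_eq_mul_left (card_pos B) ((cq h4 h5).symm.trans c)]; rfl)).1
  rw [cq h1 h2, cq (le_inf h1 (le_cm1 (h5 hm))) (inf_le_left.trans h2), quo_cm1 h1 h2 (h5 hm), mul_left_comm]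
  exact Nat.mul_le_mul_left _ this
namespace KS
variable [Finite G] {L Z R : Subgroup G} {y : G} {P : G → S5} {e : S5 →* G} (h : KS L Z R y P e)
  {A B D I X Y l : Subgroup G} {a b c d g k m r z : G} {σ τ : S5}
include h
local notation "K" => N(Z)
local notation "CL" g:max => (L ⊓ cm Z {g} : Subgroup G)
local notation "L0" => (L ⊓ cm Z {e u0} : Subgroup G)
local notation "W" => (L ⊓ cm Z {e u0} ⊓ cm Z {e s0} : Subgroup G)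
local notation "V" => (L ⊓ cm Z {e u0} ⊔ Subgroup.map e V4 : Subgroup G)
local notation "Q" z:max => (R ⊓ cm (zpowers z) Z : Subgroup G)
local notation "L2" z:max => (L ⊓ cm Z (R ⊓ cm (zpowers z) Z : Subgroup G) : Subgroup G)
local notation "Il" l:max => (L ⊓ cm l L : Subgroup G)
local notation "U" => (Subgroup.map e V4 : Subgroup G)
theorem ei : Function.Injective e := fun a b k => by rw [← h.Pe a, k, h.Pe]
theorem cL0 : #L0 = 2 ^ 9 := sqe ((h.INu h.ZL le_rfl ((cent_le_norm _).trans h.nL)).trans (by rw [h.cL]; norm_num))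
theorem nU (k : σ ∈ S4) : e σ ∈ N(U) := by rw [mem_norm_iff_cj, cj_map, cj_of_mem_norm (nV4 k)]
theorem UC : U ≤ C(Z) := by rintro _ ⟨σ, -, rfl⟩; exact h.eC σ
theorem cU : #U = 4 := (card_map_of_injective h.ei).trans cV4
theorem L0U : L ⊓ cm Z U = L0 := by
  have l : L ⊓ cm Z U ≤ L0 := inf_le_inf_left _ (cm_one (mem_map_of_mem _ d1.1))
  have UK := h.UC.trans (cent_le_norm _)
  have n : ∀ k ∈ K, k ∈ N(U) → k ∈ N(L ⊓ cm Z U) := fun k h1 h2 => norms_inf (zpowers_le.2 (h.nL h1)) (zpowers_le.2 (cm_nm h1 h2))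
    (mem_zpowers k)
  refine eq_of_le_of_card_ge l (h.cL0 ▸ ?_)
  rcases h.exp6 (le_inf h.ZL (le_cm UK)) inf_le_left (n _ (h.eK _) (h.nU d1.2.2.2.2.1)) (n _ (h.RK h.yR) (cent_le_norm _
    (le_cent1_iff.1 (by rintro _ ⟨σ, -, rfl⟩; exact h.ey σ)))) with c | c | c
  · obtain ⟨a, ha, k, m⟩ := fixcos h.pL (PiN.of_card_pow Nat.prime_two (k := 2) h.cU) h.ZL h.LK UK (UK.trans h.nL) h.LZ
    exact (k (c.le ⟨ha, m⟩)).elim
  · exact c.ge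
  · rw [c, h.cL]; norm_num
theorem nL0 (k : σ ∈ S4) : e σ ∈ N(L0) := h.L0U ▸ norms_inf (zpowers_le.2 (h.nL (h.eK σ)))
  (zpowers_le.2 (cm_nm (h.eK σ) (h.nU k))) (mem_zpowers _)
theorem RL0 : R ≤ N(L0) := h.RnCL (h.eC _)
theorem L0v (k : σ ∈ V4) (n : σ ≠ 1) : CL (e σ) = L0 := (eq_of_le_of_card_ge (h.L0U ▸ inf_le_inf_left _ (cm_one (mem_map_of_mem _ k)))
  (h.cL0 ▸ h.BD9 (h.eK σ) (by rwa [h.Pe]))).symm
theorem cz (ha : a ∈ C(Z)) (hz : z ∈ Z) : a * z * a⁻¹ = z := cjc (cent_le_cent1 hz ha)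
theorem inv0 (k : σ ∈ V4) (n : σ ≠ 1) (hm : m ∈ L0) : e σ * m * (e σ)⁻¹ = m⁻¹ := by
  have s := h.es (dVs σ k)
  obtain ⟨J, -, l, k1, c⟩ := cmq h.ZL h.LK h.sL (h.eK σ) (h.nL (h.eK σ)) (s ▸ one_mem _)
  rw [h.L0v k n] at l c
  rw [h.cL0, h.cL, h.cZ] at c
  obtain ⟨a, ha, b, hb, rfl⟩ := k1 m ((eq_of_le_of_card_eq l (by rw [h.cL0]; omega)).ge hm)
  have := h.cz (h.LC (cms (cmN (h.nL (h.eK σ)) ha))) hb
  rw [cjmul, h.cz (h.eC σ) hb, mul_inv_rev, inv_eq_of_mul_eq_one_right (h.sZ b hb), eq_mul_inv_iff_mul_eq, mul_assoc,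
    ← mul_inv_eq_iff_eq_mul.1 this, ← mul_assoc, commutatorElement_def, inv_eq_of_mul_eq_one_right s]
  simp only [mul_assoc, s, mul_one, ← mul_assoc (e σ) (e σ), one_mul, inv_mul_cancel_left, mul_inv_cancel_left]
theorem sL0 : ∀ m ∈ L0, m * m = 1 := fun m hm => by
  have := h.inv0 d1.2.2.2.2.2.2.2.2.1 d2.2.2.2.2.2.2.2 hm
  rw [map_mul, ← cjcj, h.inv0 d1.2.1 d2.2.2.2.2.2.2.1 hm, h.inv0 d1.1 d0.2.2.2.2.2.1 (inv_mem hm), inv_inv] at this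
  exact mul_eq_one_iff_eq_inv.2 this
theorem UL0 : U ≤ C(L0) := by
  rintro _ ⟨σ, k, rfl⟩
  by_cases n : σ = 1
  · simp [n]
  exact le_cent1_iff.1 fun m hm => mem_cent1_symm.1 (of_cjc ((h.inv0 k n hm).trans (inv_eq_of_mul_eq_one_right (h.sL0 m hm))))
theorem mV : a ∈ V ↔ ∃ m ∈ L0, ∃ σ ∈ V4, a = m * e σ := (mem_sup_of_norm (norms_of_cents h.UL0)).trans
  ⟨by rintro ⟨m, hm, _, ⟨σ, k, rfl⟩, rfl⟩; exact ⟨m, hm, σ, k, rfl⟩, fun ⟨m, hm, σ, k, e⟩ => ⟨m, hm, _, ⟨σ, k, rfl⟩, e⟩⟩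
theorem sV : ∀ a ∈ V, a * a = 1 := fun a ha => by
  obtain ⟨m, hm, σ, k, rfl⟩ := h.mV.1 ha
  rw [mul_assoc, ← mul_assoc (e σ), ← mem_cent.1 (h.UL0 (mem_map_of_mem _ k)) m hm, mul_assoc, h.es (dVs σ k), mul_one, h.sL0 m hm]
theorem cV : #V = 2 ^ 11 := by
  rw [card_sup_of_disjoint (norms_of_cents h.UL0) ((eq_bot_iff_forall _).2 (by
    rintro _ ⟨k, σ, -, rfl⟩; rw [h.e1 (h.LR k.1), map_one])), h.cL0, h.cU]; norm_num
theorem VC : V ≤ C(Z) := sup_le (inf_le_left.trans h.LC) h.UC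
theorem VK : V ≤ K := h.VC.trans (cent_le_norm _)
theorem PV (ha : a ∈ V) : P a ∈ V4 := by
  obtain ⟨m, hm, σ, k, rfl⟩ := h.mV.1 ha
  rwa [h.Pm _ (h.LK hm.1) _ (h.eK σ), h.PL hm.1, h.Pe, one_mul]
theorem VR (ha : a ∈ V) (k : a ∈ R) : a ∈ L0 := by
  obtain ⟨m, hm, σ, -, rfl⟩ := h.mV.1 ha
  rwa [h.e1 ((R.mul_mem_cancel_left (h.LR hm.1)).1 k), map_one, mul_one]
theorem ZL0 : Z ≤ L0 := h.ZCL (h.eK _)
theorem ZW : Z ≤ W := le_inf h.ZL0 (le_cm1 (h.eK _))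
theorem cW : #W = 2 ^ 6 := sqe ((h.INs h.ZL0 inf_le_left (h.nL0 d1.2.2.2.2.1) (h.nL0 d1.2.2.2.2.2.2.2.1)).trans (by rw [h.cL0]; norm_num))
theorem RW : R ≤ N(W) := by
  rw [inf_assoc, inf_inf_distrib_left]; exact norms_inf h.RL0 (h.RnCL (h.eC _))
theorem cI (h1 : Z ≤ I) (h2 : I ≤ L) (n : C(Z) ≤ N(I)) {i : ℕ} (c : #I = 2 ^ (3 + 4 * i)) :
    #(I ⊓ cm Z {e u0}) = 2 ^ (3 + 2 * i) ∧ #(I ⊓ cm Z {e u0} ⊓ cm Z {e s0}) = 2 ^ (3 + i) := by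
  have e1 : #(I ⊓ cm Z {e u0}) = 2 ^ (3 + 2 * i) := sqe ((h.INu h1 h2 n).trans (by rw [c]; ring))
  have k : ∀ σ ∈ S4, e σ ∈ N(I ⊓ cm Z {e u0}) := fun σ k => by
    rw [← inf_eq_left.2 h2, inf_assoc]
    exact norms_inf (zpowers_le.2 (n (h.eC σ))) (zpowers_le.2 (h.nL0 k)) (mem_zpowers _)
  exact ⟨e1, sqe ((h.INs (le_inf h1 (le_cm1 (h.eK _))) (inf_le_left.trans h2) (k _ d1.2.2.2.2.1) (k _ d1.2.2.2.2.2.2.2.1)).trans
    (by rw [e1]; ring))⟩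
theorem B16 (h1 : Z ≤ I) (h2 : I ≤ L) (n : C(Z) ≤ N(I)) (c : #I = 2 ^ 7) (hm : m ∈ I) : ∃ σ, m ∈ cj (e σ) L0 := by
  by_cases k : m ∈ Z
  · exact ⟨1, by simpa using h.ZL0 k⟩
  have l : C(Z) ⊓ cm Z {m} ≤ K := inf_le_left.trans (cent_le_norm _)
  have c1 := orbq (n := 15) (h.ZL.trans h.LC) (cent_le_norm _) n h1 (h2.trans h.LK) hm k (by rw [c, h.cZ]; norm_num)
  have c2 := card_le (show C(Z) ⊓ cm Z {m} ⊓ R ≤ L from fun g hg => h.RC.le ⟨hg.2, hg.1.1⟩)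
  rw [h.cph l, h.cC] at c1
  rw [h.cL] at c2
  obtain ⟨σ, k1, k2, k3⟩ := ev5 (X := im h.ph (C(Z) ⊓ cm Z {m})) (by nlinarith)
  obtain ⟨a, ha, rfl⟩ := (h.mph l).1 k1
  have m1 : m ∈ CL (e (P a)) := h.clC ha.1 ▸ ⟨h2 hm, cm_sy ha.2 (h.LK (h2 hm))⟩
  rcases dev _ k3 with k4 | k4 | k4
  exacts [(k ((h.CL3 k4 k2).le m1)).elim, (k ((h.C5 k4 k2).le m1)).elim,
    let ⟨τ, e1⟩ := du _ k2 k4 k3; ⟨τ, by rwa [h.cjCL (h.eK τ), h.ec, e1]⟩]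
theorem sB (h1 : Z ≤ I) (h2 : I ≤ L) (n : C(Z) ≤ N(I)) (c : #I = 2 ^ 7) : ∀ m ∈ I, m * m = 1 := fun m hm =>
  let ⟨σ, k⟩ := h.B16 h1 h2 n c hm; sq_cj h.sL0 _ m k
theorem coreK (h1 : Z ≤ A) (h2 : A ≤ L) (n : R ≤ N(A)) : core C(Z) A = Z ∨ A = L :=
  (h.expK (le_core h1 (cent_le_norm _)) (core_le.trans h2) (fun c hc => core_nm (le_normalizer hc) (.inr hc))
    (core_nm (norm_le_norm_cent _ (h.RK h.yR)) (.inl (n h.yR)))).imp_right fun e => le_antisymm h2 (e.ge.trans core_le)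
theorem NC : ∃ g ∈ C(Z), ¬ cj g W ≤ C(W) := by
  by_contra! k
  have l : W ≤ L := inf_le_left.trans inf_le_left
  have := card_le ((h.coreK (A := L ⊓ C(W)) (le_inf h.ZL (cents_symm (l.trans h.LC))) inf_le_left (norms_inf (h.RK.trans h.nL)
    (norms_cent h.RW))).elim (fun e => show W ≤ Z from fun w hw => e.le fun g hg => ⟨conj_mem_of_norm (h.nL (cent_le_norm _ hg)) (l hw),
      k g hg (conj_mem_cj.2 hw)⟩) fun e => (le_inf l (cents_symm (e.ge.trans inf_le_right))).trans h.zL.le)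
  rw [h.cW, h.cZ] at this
  omega
end KS
end H26.JP
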