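import Cfsg.Agent.H26.JP.B2

/-! The pentad subgroup: the stabilizer of an involution of the centre. -/

set_option autoImplicit false
set_option linter.unusedSectionVars false
set_option linter.unusedVariables false
set_option maxRecDepth 100000
open Subgroup H16 H19 H0 H0.TR H20.J4 H26.J4
open scoped commutatorElement
namespace H26.JP
variable {G : Type*} [Group G]
local notation "cj" => H19.cj

theorem nm_inf {A B : Subgroup G} {g : G} (h1 : g ∈ N(A)) (h2 : g ∈ N(B)) : g ∈ N(A ⊓ B) := by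
  rw [mem_norm_iff_cj, cj_inf, cj_of_mem_norm h1, cj_of_mem_norm h2]
theorem nm_sup {A B : Subgroup G} {g : G} (h1 : g ∈ N(A)) (h2 : g ∈ N(B)) : g ∈ N(A ⊔ B) := by
  rw [mem_norm_iff_cj, cj_sup, cj_of_mem_norm h1, cj_of_mem_norm h2]
theorem nm_c1 {a g : G} (h : g ∈ C[a]) : g ∈ N(C[a]) := le_normalizer h
theorem nm_cm1 {B : Subgroup G} {a g : G} (h1 : g ∈ N(B)) (h : g ∈ C[a]) : g ∈ N(cm B {a}) := by
  rw [mem_norm_iff_cj, cj_cm1, cj_of_mem_norm h1, cjc h]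
theorem nm_cj {A X : Subgroup G} {g : G} (h1 : X ≤ N(A)) (h2 : g ∈ N(X)) : X ≤ N(cj g A) := by
  rw [← cj_norm, ← cj_of_mem_norm h2]; exact cj_mono g h1
theorem p23 [Finite G] {A : Subgroup G} {x : G} (p : PG 2 A) (h : x ^ 3 = 1) (m : x ∈ A) : x = 1 :=
  mem_bot.1 ((inf_eq_bot_of_cop (cp3 p h)).le ⟨m, mem_zpowers x⟩)
namespace KS
variable [Finite G] {L Z R : Subgroup G} {y : G} {P : G → S5} {e : S5 →* G} (h : KS L Z R y P e)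
  {A B D I X Y l : Subgroup G} {a b c d g k m r z : G} {σ τ : S5}
include h
local notation "K" => N(Z)
local notation "CL" g:max => (L ⊓ cm Z {g} : Subgroup G)
local notation "L0" => (L ⊓ cm Z {e u0} : Subgroup G)
local notation "W" => (L ⊓ cm Z {e u0} ⊓ cm Z {e s0} : Subgroup G)
local notation "V" => (L ⊓ cm Z {e u0} ⊔ Subgroup.map e V4 : Subgroup G)
local notation "Q" z:max => (R ⊓ cm (zpowers z) Z : Subgroup G)
local notation "L2" z:max => (L ⊓ cm Z (R ⊓ cm (zpowers z) Z : Subgroup G) : Subgroup G)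
local notation "Il" l:max => (L ⊓ cm l L : Subgroup G)
theorem zc (ha : a ∈ Z) (hb : b ∈ Z) : a * b = b * a := comm_of_sq h.sZ ha hb
theorem br (hm : m ∈ L) (ha : a ∈ L) (hb : b ∈ L) : ⁅m, a * b⁆ = ⁅m, a⁆ * ⁅m, b⁆ := by rw [cmr, h.cz (h.LC ha) (h.cmL _ hm _ hb)]
theorem bl (hm : m ∈ L) (ha : a ∈ L) (hb : b ∈ L) : ⁅a * b, m⁆ = ⁅a, m⁆ * ⁅b, m⁆ := by
  rw [cml, h.cz (h.LC ha) (h.cmL _ hb _ hm), h.zc (h.cmL _ hb _ hm) (h.cmL _ ha _ hm)]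
theorem bz (hm : m ∈ L) (hc : c ∈ Z) : ⁅m, c⁆ = 1 := cm1.2 (cent_le_cent1 hc (h.LC hm))
theorem bz' (hm : m ∈ L) (hc : c ∈ Z) : ⁅c, m⁆ = 1 := by rw [← commutatorElement_inv, h.bz hm hc, inv_one]
theorem WL : W ≤ L := inf_le_left.trans inf_le_left
theorem cWx (hr : r ∈ R) (r3 : r ^ 3 = 1) (r1 : r ≠ 1) : #(W ⊓ cm Z {r}) = 16 := by
  have k := fixq Nat.prime_three h.ZW (h.WL.trans h.LK) (h.RK hr) (h.RW hr) (r3 ▸ one_mem _)
  obtain ⟨i, i1, -, c⟩ := h.exA (le_inf h.ZW (le_cm1 (h.RK hr))) (inf_le_left.trans h.WL)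
  have c1 := card_lt (lt_of_le_of_ne inf_le_left fun e : W ⊓ cm Z {r} = W => r1 (p23 h.pL r3 ((h.RI h.ZW h.WL h.RW fun e => by
    have := h.cW; rw [e, h.cZ] at this; omega).le ⟨hr, h.RK hr, fun m hm => cms (mem_cm1.1 (e.ge hm).2).2⟩)))
  rw [c, h.cW] at c1 k
  rw [c]
  have : i < 6 := (Nat.pow_lt_pow_iff_right (by decide)).1 c1
  unfold Nat.ModEq at k
  interval_cases i <;> omega
theorem xW (hr : r ∈ R) (r3 : r ^ 3 = 1) (r1 : r ≠ 1) (h1 : Z ≤ D) (h2 : D ≤ W) (n : r ∈ N(D)) (c : #D = 32) : D ⊓ cm Z {r} = Z := by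
  have k := fixq Nat.prime_three h1 (h2.trans (h.WL.trans h.LK)) (h.RK hr) n (r3 ▸ one_mem _)
  have l := le_inf h1 (le_cm1 (h.RK hr))
  obtain ⟨i, i1, -, c0⟩ := h.exA l (inf_le_left.trans (h2.trans h.WL))
  have c1 := card_le (inf_le_inf_right (cm Z {r}) h2)
  rw [h.cWx hr r3 r1, c0] at c1
  have : i ≤ 4 := (Nat.pow_le_pow_iff_right (by decide : 1 < 2)).1 c1
  refine h.eqZ l ?_
  rw [c0, c] at k
  rw [c0]
  unfold Nat.ModEq at k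
  interval_cases i <;> omega
variable (hz : z ∈ Z) (z1 : z ≠ 1)
include hz z1
theorem cz2 : #(zpowers z) = 2 := c2 (h.sZ z hz) z1
theorem mz : a ∈ zpowers z ↔ a = 1 ∨ a = z := mem_zpowers_inv (h.sZ z hz)
theorem QH : Q z ≤ C[z] := inf_le_right.trans (cm_le.trans (nzC (h.sZ z hz)))
theorem QK : Q z ≤ K := inf_le_left.trans h.RK
theorem CH : C(Z) ≤ K ⊓ C[z] := le_inf (cent_le_norm _) (cent_le_cent1 hz)
theorem LQ : L ≤ Q z := fun m hm => ⟨h.LR hm, cN z (h.CH hz z1 (h.LC hm)).2, fun a ha => h.bz hm ha ▸ one_mem _⟩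
theorem nQ : K ⊓ C[z] ≤ N(Q z) := norms_inf (inf_le_left.trans h.nR) (cm_nms (inf_le_right.trans (cN z)) inf_le_left)
theorem Qt (h1 : l ≤ Z) (c4 : #l = 4) (zl : z ∈ l) (hc : c ∈ Z) (n : c ∉ l) : ∃ q ∈ Q z ⊓ C(l), q * c * q⁻¹ = z * c := by
  obtain ⟨q, hq, e⟩ := h.F3Z.t3 h1 c4 hc n (mul_mem hz hc) (mt (l.mul_mem_cancel_left zl).1 n)
  have m := cN z (cent_le_cent1 zl hq.2)
  have nz : Z ≤ N(zpowers z) := (h.ZL.trans (h.LQ hz z1)).trans (inf_le_right.trans cm_le)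
  refine ⟨q, ⟨⟨hq.1, m, fun a ha => cms (mem_cm1.1 ?_).2⟩, hq.2⟩, e⟩
  exact (sup_le (fun b hb => cent_cm (nz (h1 hb)) (mem_cent1_symm.1 (cent_le_cent1 hb hq.2))) (zpowers_le.2 (mem_cm1.2 ⟨nz hc,
    cms (by rw [commutatorElement_def, e, mul_inv_cancel_right]; exact mem_zpowers z)⟩))) ((pl_gen h.sZ h.cZ h1 c4 hc n).ge ha)
theorem expl (hc : c ∈ Z) (n : c ∉ zpowers z) : ∃ l ≤ Z, #l = 4 ∧ z ∈ l ∧ c ∉ l := by
  have c1 := pl2 h.sZ hz hc z1 n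
  obtain ⟨b, hb, nb⟩ := ex_out (A := Z) (by rw [c1, h.cZ]; decide)
  have c2 := pl2 h.sZ hz hb z1 fun e => nb (mem_sup_left e)
  exact ⟨_, sup_le (zpowers_le.2 hz) (zpowers_le.2 hb), c2, mem_sup_left (mem_zpowers z), fun e => nb ((eq_of_le_of_card_eq
    (sup_le le_sup_left (zpowers_le.2 e)) (c1.trans c2.symm)).ge (mem_sup_right (mem_zpowers b)))⟩
theorem Qm (hc : c ∈ Z) (n : c ∉ zpowers z) : ∃ q ∈ Q z, q * c * q⁻¹ = z * c :=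
  let ⟨l, h1, h2, h3, h4⟩ := h.expl hz z1 hc n; let ⟨q, hq, e⟩ := h.Qt hz z1 h1 h2 h3 hc h4; ⟨q, hq.1, e⟩
theorem CZQ (hc : c ∈ Z) (k : c ∈ C(Q z)) : c ∈ zpowers z := by_contra fun n =>
  let ⟨q, hq, e⟩ := h.Qm hz z1 hc n; z1 (mul_eq_right.1 (e.symm.trans (cjc' (cent_le_cent1 hq k))))
theorem cQ : #(Q z) = 2 ^ 17 := by
  obtain ⟨b, hb, nb⟩ := ex_b h.sZ (by rw [h.cZ]; decide) hz
  have c1 := pl2 h.sZ hz hb z1 nb
  have l1 := sup_le (zpowers_le.2 hz) (zpowers_le.2 hb)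
  obtain ⟨c, hc, nc⟩ := ex_out (A := Z) (by rw [c1, h.cZ]; decide)
  have k1 := cbd (X := Q z) fun q hq => hq.2.2 b hb
  have k2 := cbd (X := Q z ⊓ C[b]) fun q hq => hq.1.2.2 c hc
  have k3 := card_le (show Q z ⊓ C[b] ⊓ C[c] ≤ L from fun q hq => h.RC.le ⟨hq.1.1.1, by
    rw [← pl_gen h.sZ h.cZ l1 c1 hc nc, cent_sup, cent_sup, cent_zpowers, cent_zpowers, cent_zpowers]
    exact ⟨⟨h.QH hz z1 hq.1.1, hq.1.2⟩, hq.2⟩⟩)
  obtain ⟨q, hq, e1⟩ := h.Qt hz z1 l1 c1 (mem_sup_left (mem_zpowers z)) hc nc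
  obtain ⟨r, hr, e2⟩ := h.Qm hz z1 hb nb
  have k4 := two_le (le_inf (h.LQ hz z1) (h.LC.trans (cent_le_cent1 hb))) ⟨hq.1, cent_le_cent1 (mem_sup_right (mem_zpowers b)) hq.2⟩
    fun k => z1 (mul_eq_right.1 (e1.symm.trans (h.cz (h.LC k) hc)))
  have k5 := two_le inf_le_left hr fun k : r ∈ Q z ⊓ C[b] => z1 (mul_eq_right.1 (e2.symm.trans (cjc k.2)))
  rw [h.cz2 hz z1] at k1 k2
  rw [h.cL] at k3 k4
  omega
theorem pQ : PG 2 (Q z) := PiN.of_card_pow Nat.prime_two (h.cQ hz z1)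
theorem sQ : ∀ q ∈ Q z, q * q ∈ L := fun q hq => h.RC.le ⟨mul_mem hq.1 hq.1, le_cent1_iff.1 fun a ha => mem_cent1_symm.1 (of_cjc (by
  have := cjc (cent1_le_cent1_of_mem_zpowers (hq.2.2 a ha) (h.QH hz z1 hq))
  rw [← cjcj, cjcm q a, cjmul, this, cjcm q a, ← mul_assoc, h.sZ _ (zpowers_le.2 hz (hq.2.2 a ha)), one_mul]))⟩
theorem exx : ∃ x ∈ R ⊓ C[z] ⊓ C[e w0], x ^ 3 = 1 ∧ x ≠ 1 := by
  have c1 := h.F3Z.c7 hz z1
  have l : R ⊓ C[z] ≤ L ⊔ R ⊓ C[z] ⊓ C[e w0] := fun r hr => by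
    obtain ⟨b, hb, k⟩ := cm_cop h.pL (h.nL (h.eK w0)) (h.ep d0.2.2.1) (by decide) (mem_cm1.2 ⟨h.nL (h.RK hr.1), h.cmRC hr.1 (h.eC _)⟩)
    simpa using mul_mem_sup (inv_mem hb) (show b * r ∈ R ⊓ C[z] ⊓ C[e w0] from
      ⟨mul_mem ⟨h.LR hb, (h.CH hz z1 (h.LC hb)).2⟩ hr, k⟩)
  have := (card_dvd l).trans (card_sup_dvd (inf_le_left.trans (inf_le_left.trans (h.RK.trans h.nL))))
  rw [h.cL, show #(R ⊓ C[z]) = 3 * 2 ^ 18 by rw [h.cR] at c1; omega] at this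
  obtain ⟨x, hx, o⟩ := exists_orderOf_eq_prime Nat.prime_three ((Nat.Coprime.dvd_mul_left (by norm_num)).1 (Dvd.dvd.trans
    (Dvd.intro _ rfl) this))
  exact ⟨x, hx, o ▸ pow_orderOf_eq_one x, fun e => by simp [e] at o⟩
theorem ZL2 : Z ≤ L2 z := le_inf h.ZL (le_cm (h.QK hz z1))
theorem nL2 : K ⊓ C[z] ≤ N(L2 z) := norms_inf (inf_le_left.trans h.nL) (cm_nms inf_le_left (h.nQ hz z1))
theorem D0 : #(W ⊓ cm Z (Q z)) ≠ 16 := fun cA => by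
  obtain ⟨x, ⟨hx, -⟩, x3, x1⟩ := h.exx hz z1
  obtain ⟨g, hg, ng⟩ := h.NC
  have gK := cent_le_norm _ hg
  have QR : Q z ≤ R := inf_le_left
  have QK := h.QK hz z1
  have ZA : Z ≤ W ⊓ cm Z (Q z) := le_inf h.ZW (le_cm QK)
  have nA : R ⊓ C[z] ≤ N(W ⊓ cm Z (Q z)) := norms_inf (inf_le_left.trans h.RW) (cm_nms (inf_le_left.trans h.RK)
    ((inf_le_inf_right _ h.RK).trans (h.nQ hz z1)))
  have QA := (le_inf QR (h.QH hz z1)).trans nA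
  have AQ : W ⊓ cm Z (Q z) ≤ cm Z (Q z) := inf_le_right
  have AW : W ⊓ cm Z (Q z) ≤ W := inf_le_left
  generalize W ⊓ cm Z (Q z) = A at *
  have AL := AW.trans h.WL
  have t : ∀ a ∈ A, ∀ b ∈ A, a ∉ Z → b ∉ Z → a * b⁻¹ ∈ Z := fun a ha b hb h1 h2 =>
    two_mul ZA (by rw [cA, h.cZ]) ha (inv_mem hb) h1 (mt inv_mem_iff.1 h2)
  obtain ⟨w, hw, nw⟩ := ex_out (A := A) (B := Z) (by rw [cA, h.cZ]; decide)
  have xw : w ∈ cm Z {x} := cm_sy (mem_cm1.2 ⟨h.RK hx.1, t _ (conj_mem_of_norm (nA hx) hw) _ hw (fun k => nw (by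
    simpa [mul_assoc] using conj_mem_of_norm' (h.RK hx.1) k)) nw⟩) (h.LK (AL hw))
  have k32 : ∀ D, Z ≤ D → D ≤ W → x ∈ N(D) → w ∈ D → 16 < #D → D = W := fun D h1 h2 h3 h4 h5 => by
    have p := h.pL.of_le (h2.trans h.WL)
    refine eq_of_le_of_card_ge h2 (h.cW ▸ pw2' p (lt_of_le_of_ne (pw2' p (n := 4) h5) fun e => nw ?_))
    exact (h.xW hx.1 x3 x1 h1 h2 h3 e.symm).le ⟨h4, xw⟩
  have WA := h.WL.trans (h.nA ZA AL)
  have k1 : W ⊓ cm A (Q z) = W := by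
    obtain ⟨a, ha, n, k⟩ := fixcos (h.pL.of_le h.WL) (h.pQ hz z1) AW WA QA (QR.trans h.RW) fun e => by
      have := h.cW; rw [e] at this; omega
    have l : A ≤ W ⊓ cm A (Q z) := le_inf AW (le_cm QA)
    exact k32 _ (ZA.trans l) inf_le_left (nm_inf (h.RW hx.1) (cm_nm (nA hx) (h.nQ hz z1 ⟨h.RK hx.1, hx.2⟩))) (l hw)
      (cA ▸ card_lt (lt_of_le_of_ne l fun e => n (e.ge ⟨ha, k⟩)))
  have nZ : ∀ D : Subgroup G, #D = 2 ^ 6 → D ≠ Z := fun D c e => by rw [e, h.cZ] at c; omega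
  have mv : ∀ g ∈ C(Z), ∀ q ∈ Q z, q ∉ L → ∃ m ∈ cj g W, ∃ c ∈ Z, q * m * q⁻¹ = c * (g * w * g⁻¹) * m := fun g hg q hq n => by
    have gK := cent_le_norm _ hg
    have gZ := cj_of_mem_norm gK
    have := mt (fun k => (h.RI (gZ.ge.trans (cj_mono g h.ZW)) (cj_le_of_mem_norm (h.nL gK) h.WL) (nm_cj h.RW (h.nR gK)) (nZ _
      ((card_cj _ _).trans h.cW))).le ⟨QR hq, QK hq, k⟩) n
    push Not at this
    obtain ⟨m, hm, k⟩ := this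
    have := cj_mono g (k1.ge.trans inf_le_right) hm
    rw [cj_cm, cj_of_mem_norm (h.nQ hz z1 (h.CH hz z1 hg))] at this
    obtain ⟨a, ha, e⟩ := mem_cj'.1 (cms (this.2 q hq))
    refine ⟨m, hm, _, conj_mem_of_norm gK (t a ha w hw (fun k' => k (e ▸ conj_mem_of_norm gK k')) nw), ?_⟩
    rw [cjcm q m, ← e]; group
  have nL := conj_mem_of_norm (h.nL gK) (AL hw)
  have qn : ∀ q ∈ Q z, ⁅q, g * w * g⁻¹⁆ ∈ Z := fun q hq =>
    cms (mem_cm1.1 (conj_mem_of_norm (h.CnCL (QR hq) hg) ⟨AL hw, cm_one hq (AQ hw)⟩).2).2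
  have xn : ⁅x, g * w * g⁻¹⁆ ∈ Z := cms (mem_cm1.1 (conj_mem_of_norm (h.CnCL hx.1 hg) ⟨AL hw, xw⟩).2).2
  have nW : g * w * g⁻¹ ∈ cj g W := conj_mem_cj.2 (AW hw)
  have nz : g * w * g⁻¹ ∉ Z := fun k => nw (by simpa [mul_assoc] using conj_mem_of_norm' gK k)
  have mvg := mv g hg
  generalize g * w * g⁻¹ = n at *
  have k2 : ∀ b ∈ W, ⁅b, n⁆ ∈ zpowers z := fun b hb => by
    have bL := h.WL hb
    have := cbdq (h.ZL.trans (h.LQ hz z1)) QK ZA (AL.trans h.LK) (h.LK bL) fun q hq => cms ((k1.ge hb).2.2 q hq)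
    obtain ⟨q, hq, k⟩ := ex_out (A := Q z ⊓ cm Z {b}) (B := L) (by rw [h.cQ hz z1, cA, h.cZ] at this; rw [h.cL]; omega)
    obtain ⟨m, hm, c, hc, e⟩ := mvg q hq.1 k
    have mL := cj_le_of_mem_norm (h.nL gK) h.WL hm
    have := hq.1.2.2 _ (h.cmL b bL m mL)
    have b1 := h.ZL (mem_cm1.1 hq.2).2
    rwa [commutatorElement_def, cmc, e, cjcm q b, h.bl (mul_mem (mul_mem (h.ZL hc) nL) mL) b1 bL,
      h.bz' (mul_mem (mul_mem (h.ZL hc) nL) mL) (mem_cm1.1 hq.2).2, one_mul, h.br bL (mul_mem (h.ZL hc) nL) mL, h.br bL (h.ZL hc) nL,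
      h.bz bL hc, one_mul, mul_inv_cancel_right] at this
  have k3 : w ∈ C[n] := by
    obtain ⟨q, hq, k⟩ := ex_out (A := Q z) (B := L) (by rw [h.cQ hz z1, h.cL]; omega)
    obtain ⟨m, hm, c, hc, e⟩ := mv 1 (one_mem _) q hq k
    rw [cj_one] at hm
    have mL := h.WL hm
    have := cjc (cent1_le_cent1_of_mem_zpowers (k2 m hm) (h.QH hz z1 hq))
    have wL := AL hw
    rw [one_mul, inv_one, mul_one] at e
    rwa [cmc, e, cjcm q n, h.br (mul_mem (mul_mem (h.ZL hc) wL) mL) (h.ZL (qn q hq)) nL, h.bz (mul_mem (mul_mem (h.ZL hc) wL) mL)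
      (qn q hq), one_mul, h.bl nL (mul_mem (h.ZL hc) wL) mL, h.bl nL (h.ZL hc) wL, h.bz' nL hc, one_mul, mul_eq_right, cm1] at this
  have k4 := k32 (W ⊓ C[n]) (le_inf h.ZW (le_cent1_iff.2 (h.LC nL))) inf_le_left (mem_norm_of_cj_le fun m hm => by
    rw [cj_inf, cj_of_mem_norm (h.RW hx.1), cj_cent1, cjcm] at hm
    exact ⟨hm.1, mem_cent1_symm.1 ((Subgroup.mul_mem_cancel_left _ (mem_cent1_symm.1 (cent_le_cent1 xn (h.LC (h.WL hm.1))))).1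
      (mem_cent1_symm.1 hm.2))⟩) ⟨AW hw, k3⟩ (by have := cbd k2; rw [h.cz2 hz z1, h.cW] at this; omega)
  have l1 : Z ≤ cj g W ⊓ C(W) := le_inf ((cj_of_mem_norm gK).ge.trans (cj_mono g h.ZW)) (cents_symm (h.WL.trans h.LC))
  have l2 : cj g W ⊓ C(W) ≤ L := inf_le_left.trans (cj_le_of_mem_norm (h.nL gK) h.WL)
  have k5 := h.expy l1 l2 (nm_inf (nm_cj h.RW (h.nR gK) h.yR) (norms_cent h.RW h.yR))
  have k6 := two_le l1 ⟨nW, le_cent1_iff.1 (k4.ge.trans inf_le_right)⟩ nz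
  obtain ⟨i, -, -, c⟩ := h.exA l1 l2
  have k7 := card_lt (lt_of_le_of_ne inf_le_left fun e : cj g W ⊓ C(W) = cj g W => ng (e.ge.trans inf_le_right))
  rw [card_cj, h.cW, c] at k7
  have : i < 6 := (Nat.pow_lt_pow_iff_right (by decide)).1 k7
  rw [c] at k5 k6
  rw [h.cZ] at k6
  interval_cases i <;> omega
theorem cL2 : #(L2 z) = 2 ^ 11 := by
  have n := (h.CH hz z1).trans (h.nL2 hz z1)
  have e1 : L2 z ⊓ cm Z {e u0} ⊓ cm Z {e s0} = W ⊓ cm Z (Q z) := by simp only [inf_assoc, inf_comm, inf_left_comm]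
  rcases h.expC (h.ZL2 hz z1) inf_le_left n with c | c | c | c
  · obtain ⟨a, ha, k, m⟩ := fixcos h.pL (h.pQ hz z1) h.ZL h.LK (h.QK hz z1) ((h.QK hz z1).trans h.nL) h.LZ
    exact (k ((h.eqZ (h.ZL2 hz z1) c).le ⟨ha, m⟩)).elim
  · exact (h.D0 hz z1 (e1 ▸ (h.cI (h.ZL2 hz z1) inf_le_left n (i := 1) c).2)).elim
  · exact c
  · have := card_le ((cm_sys ((h.eqL inf_le_left c).ge.trans inf_le_right) (h.QK hz z1)).trans h.FA.le)
    rw [h.cQ hz z1, h.cL] at this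
    omega
end KS
end H26.JP
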