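import Cfsg.Agent.H26.JP.B3

/-! The pentad subgroup: invariant subgroups of the 2-core. -/

set_option autoImplicit false
set_option linter.unusedSectionVars false
set_option linter.unusedVariables false
set_option maxRecDepth 100000
open Subgroup H16 H19 H0 H0.TR H20.J4 H26.J4
open scoped commutatorElement
namespace H26.JP
variable {G : Type*} [Group G]
local notation "cj" => H19.cj

namespace KS
variable [Finite G] {L Z R : Subgroup G} {y : G} {P : G → S5} {e : S5 →* G} (h : KS L Z R y P e)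
  {A B D I X Y l : Subgroup G} {a b c d g k m r z : G} {σ τ : S5}
include h
local notation "K" => N(Z)
local notation "CL" g:max => (L ⊓ cm Z {g} : Subgroup G)
local notation "L0" => (L ⊓ cm Z {e u0} : Subgroup G)
local notation "W" => (L ⊓ cm Z {e u0} ⊓ cm Z {e s0} : Subgroup G)
local notation "V" => (L ⊓ cm Z {e u0} ⊔ Subgroup.map e V4 : Subgroup G)
local notation "Q" z:max => (R ⊓ cm (zpowers z) Z : Subgroup G)
local notation "L2" z:max => (L ⊓ cm Z (R ⊓ cm (zpowers z) Z : Subgroup G) : Subgroup G)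
local notation "Il" l:max => (L ⊓ cm l L : Subgroup G)
theorem cjQ (hk : k ∈ K) : cj k (Q z) = Q (k * z * k⁻¹) := by
  rw [cj_inf, cj_cm, cj_zpowers, cj_of_mem_norm hk, cj_of_mem_norm (h.nR hk)]
theorem cjL2 (hk : k ∈ K) : cj k (L2 z) = L2 (k * z * k⁻¹) := by
  rw [cj_inf, cj_cm, h.cjQ hk, cj_of_mem_norm hk, cj_of_mem_norm (h.nL hk)]
theorem cjIl (hk : k ∈ K) : cj k (Il l) = Il (cj k l) := by rw [cj_inf, cj_cm, cj_of_mem_norm (h.nL hk)]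
theorem ZIl (h1 : l ≤ Z) : Z ≤ Il l := fun a ha => ⟨h.ZL ha, norms_of_cents (h.LC.trans (cent_mono h1)) (h.ZL ha),
  fun m hm => h.bz' hm ha ▸ one_mem _⟩
theorem nIl (hk : k ∈ K) (n : k ∈ N(l)) : k ∈ N(Il l) := nm_inf (h.nL hk) (cm_nm n (h.nL hk))
theorem CIl (h1 : l ≤ Z) : C(Z) ≤ N(Il l) := fun c hc => h.nIl (cent_le_norm _ hc) (cent_le_norm _ (cent_mono h1 hc))
theorem c7 (h1 : Z ≤ A) (h2 : A ≤ L) (n : C(Z) ≤ N(A)) (k : A ≠ Z) : 2 ^ 7 ≤ #A := by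
  rcases h.expC h1 h2 n with c | c | c | c
  exacts [(k (h.eqZ h1 c)).elim, by omega, by omega, by omega]
theorem cB3 (hr : r ∈ R) (r3 : r ^ 3 = 1) (r1 : r ≠ 1) : #(CL r) = 2 ^ 7 := by
  have e1 : CL r ⊓ cm Z {e u0} ⊓ cm Z {e s0} = W ⊓ cm Z {r} := by simp only [inf_assoc, inf_comm, inf_left_comm]
  have k := fun i => h.cI (i := i) (h.ZCL (h.RK hr)) inf_le_left (h.CnCL hr)
  rw [e1, h.cWx hr r3 r1] at k
  rcases h.expC (h.ZCL (h.RK hr)) inf_le_left (h.CnCL hr) with c | c | c | c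
  exacts [absurd (k 0 c).2 (by decide), c, absurd (k 2 c).2 (by decide), absurd (k 3 c).2 (by decide)]
theorem PV4 (h1 : D ≤ L0) (n : e w0 ∈ N(D)) (k : ¬ D ≤ Z) (ha : a ∈ C(Z)) (m : a ∈ cm Z D) : P a ∈ V4 := by
  refine leV4 (X := (cm Z D).comap e) (fun σ k => cm_anti h1 (cm_sys (h.L0U.ge.trans inf_le_right) (h.UC.trans (cent_le_norm _))
    (mem_map_of_mem _ k))) (mem_norm_of_cj_le fun y hy => ?_) (fun σ k1 k2 => by_contra fun k3 => k fun d hd => (h.CL3 k2 k3).le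
      ⟨(h1 hd).1, cm_sy (cm_one hd k1) (h.LK (h1 hd).1)⟩) ?_
  · obtain ⟨σ, k, rfl⟩ := mem_cj'.1 hy
    exact mem_comap.2 (h.ec _ _ ▸ conj_mem_of_norm (cm_nm (h.eK _) n) k)
  · simpa using mul_mem (inv_mem (cm_anti (h1.trans inf_le_left) (h.LL (h.decC ha)))) m
section
variable (hz : z ∈ Z) (z1 : z ≠ 1)
include hz z1
theorem cmL2 (ha : a ∈ L2 z) (hb : b ∈ L2 z) : ⁅a, b⁆ ∈ zpowers z := h.CZQ hz z1 (h.cmL _ ha.1 _ hb.1)
  (le_cent1_iff.1 fun q hq => of_cjc (by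
    have a1 := cms (ha.2.2 q hq)
    have b1 := cms (hb.2.2 q hq)
    rw [cmc, cjcm q a, cjcm q b, h.bl (mul_mem (h.ZL b1) hb.1) (h.ZL a1) ha.1, h.bz' (mul_mem (h.ZL b1) hb.1) a1, one_mul,
      h.br ha.1 (h.ZL b1) hb.1, h.bz ha.1 b1, one_mul]))
theorem CL2 : C(Z) ≤ N(L2 z) := (h.CH hz z1).trans (h.nL2 hz z1)
theorem xL2 (hr : r ∈ R ⊓ C[z]) (r3 : r ^ 3 = 1) (r1 : r ≠ 1) : L2 z ⊓ cm Z {r} = Z := by_contra fun k => by
  have l : Z ≤ L2 z ⊓ cm Z {r} := le_inf (h.ZL2 hz z1) (le_cm1 (h.RK hr.1))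
  have e0 : L2 z ⊓ cm Z {r} = L2 z ⊓ CL r := by simp only [inf_assoc, inf_left_comm, inf_left_idem]
  have n := e0 ▸ norms_inf (h.CL2 hz z1) (h.CnCL hr.1)
  have c := le_antisymm ((card_le (e0.le.trans inf_le_right)).trans (h.cB3 hr.1 r3 r1).le)
    (h.c7 l (inf_le_left.trans inf_le_left) n k)
  have c1 := (h.cI l (inf_le_left.trans inf_le_left) n (i := 1) c).2
  have e1 : L2 z ⊓ cm Z {e u0} ⊓ cm Z {e s0} = L2 z ⊓ W := by simp only [inf_assoc, inf_comm, inf_left_comm, inf_left_idem]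
  have := h.xW hr.1 r3 r1 (le_inf (h.ZL2 hz z1) h.ZW) inf_le_right (nm_inf (h.nL2 hz z1 ⟨h.RK hr.1, hr.2⟩) (h.RW hr.1))
    (e1 ▸ (h.cI (h.ZL2 hz z1) inf_le_left (h.CL2 hz z1) (i := 2) (h.cL2 hz z1)).2)
  rw [inf_right_comm _ (cm Z {r}), inf_right_comm _ (cm Z {r}), e1, this, h.cZ] at c1
  omega
theorem L2fix (h1 : Z ≤ I) (h2 : I ≤ L) (n : Q z ≤ N(I)) (k : I ≠ Z) : I ⊓ L2 z ≠ Z := fun e =>
  let ⟨a, ha, k, m⟩ := fixcos (h.pL.of_le h2) (h.pQ hz z1) h1 (h2.trans h.LK) (h.QK hz z1) n k; k (e.le ⟨ha, h2 ha, m⟩)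
theorem I3 (h1 : Z ≤ I) (h2 : I ≤ L) (n : K ⊓ C[z] ≤ N(I)) : I = Z ∨ I = L2 z ∨ I = L := by
  refine or_iff_not_imp_left.2 fun k => ?_
  have l := le_inf h1 (h.ZL2 hz z1)
  have n1 := norms_inf n (h.nL2 hz z1)
  have n2 := (h.CH hz z1).trans n1
  have k1 := h.L2fix hz z1 h1 h2 ((le_inf (h.QK hz z1) (h.QH hz z1)).trans n) k
  have k2 := card_le (inf_le_right : I ⊓ L2 z ≤ _)
  rw [h.cL2 hz z1] at k2
  rcases h.expC l (inf_le_left.trans h2) n2 with c | c | c | c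
  · exact (k1 (h.eqZ l c)).elim
  · obtain ⟨x, ⟨hx, -⟩, x3, x1⟩ := h.exx hz z1
    have e1 : I ⊓ L2 z ⊓ cm Z {e u0} ⊓ cm Z {e s0} = I ⊓ L2 z ⊓ W := by
      simp only [inf_assoc, inf_comm, inf_left_comm, inf_left_idem]
    have c1 := e1 ▸ (h.cI l (inf_le_left.trans h2) n2 (i := 1) c).2
    have l1 := le_inf l h.ZW
    have := fixq Nat.prime_three l1 (inf_le_right.trans (h.WL.trans h.LK)) (h.RK hx.1) (nm_inf (n1 ⟨h.RK hx.1, hx.2⟩) (h.RW hx.1))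
      (x3 ▸ one_mem _)
    rw [c1, le_antisymm ((inf_le_inf_right _ (inf_le_left.trans inf_le_right)).trans (h.xL2 hz z1 hx x3 x1).le)
      (le_inf l1 (le_cm1 (h.RK hx.1))), h.cZ] at this
    exact absurd this (by decide)
  · have l1 := (eq_of_le_of_card_eq inf_le_right (c.trans (h.cL2 hz z1).symm)).ge.trans inf_le_left
    have := card_le l1
    rw [h.cL2 hz z1] at this
    rcases h.expC h1 h2 ((h.CH hz z1).trans n) with c | c | c | c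
    exacts [by omega, by omega, .inl (eq_of_le_of_card_eq l1 ((h.cL2 hz z1).trans c.symm)).symm, .inr (h.eqL h2 c)]
  · omega
theorem L2ne (hb : b ∈ Z) (b1 : b ≠ 1) (n : b ≠ z) : L2 z ⊔ L2 b = L ∧ #(L2 z ⊓ L2 b) = 2 ^ 7 := by
  have k : L2 z ≠ L2 b := fun e => by
    have c := card_mul_relIndex (inf_le_left : R ⊓ C[z] ≤ R)
    rw [h.F3Z.c7 hz z1, mul_comm] at c
    rcases eq_of_prime_index (le_inf inf_le_left ((inf_le_inf_right _ h.RK).trans (h.nL2 hz z1))) inf_le_left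
      (Nat.eq_of_mul_eq_mul_right (card_pos _) c ▸ (by norm_num : Nat.Prime 7)) with k | k
    · have zb : z ∉ zpowers b := fun k => ((h.mz hb b1).1 k).elim z1 n.symm
      obtain ⟨g, hg, k1⟩ := h.F3Z.t2 hb b1 hz zb (mul_mem hb hz) (mt ((zpowers b).mul_mem_cancel_left (mem_zpowers b)).1 zb)
      exact b1 (mul_eq_right.1 (k1.symm.trans (cjc (k.le ⟨hg.1, e ▸ h.nL2 hb b1 ⟨h.RK hg.1, hg.2⟩⟩).2)))
    · have := h.expy (h.ZL2 hz z1) inf_le_left (k.ge h.yR).2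
      rw [h.cL2 hz z1] at this
      omega
  have l : L2 z ⊔ L2 b ≤ L := sup_le inf_le_left inf_le_left
  have c1 := card_lt (lt_of_le_of_ne le_sup_left fun e : L2 z = L2 z ⊔ L2 b => k (eq_of_le_of_card_eq (le_sup_right.trans e.ge)
    ((h.cL2 hb b1).trans (h.cL2 hz z1).symm)).symm)
  have c2 := card_sup_mul_inf (inf_le_left.trans (h.nA (h.ZL2 hz z1) inf_le_left) : L2 b ≤ _)
  have c3 := h.expC ((h.ZL2 hz z1).trans le_sup_left) l (norms_sup (h.CL2 hz z1) (h.CL2 hb b1))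
  rw [h.cL2 hz z1] at c1 c2
  rw [h.cL2 hb b1] at c2
  have c4 : #(L2 z ⊔ L2 b) = 2 ^ 15 := by omega
  exact ⟨h.eqL l c4, by rw [c4] at c2; omega⟩
theorem exr : ∃ r ∈ R, r * z * r⁻¹ ∈ Z ∧ r * z * r⁻¹ ≠ 1 ∧ r * z * r⁻¹ ≠ z := by
  obtain ⟨b, hb, nb⟩ := ex_b h.sZ (by rw [h.cZ]; decide) hz
  obtain ⟨r, hr, e⟩ := h.F3Z.t1 hz z1 hb fun e => nb (e ▸ one_mem _)
  exact ⟨r, hr, e ▸ hb, cj_ne1 z1, e ▸ fun e => nb (e ▸ mem_zpowers _)⟩
theorem nL2Z (hb : b ∈ Z) (b1 : b ≠ 1) (n : b ≠ z) : ¬ L2 z ⊓ L2 b ≤ Z := fun k => by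
  have := card_le k
  rw [(h.L2ne hz z1 hb b1 n).2, h.cZ] at this
  omega
theorem F6 : Il (zpowers z) = Z := by
  have k : ¬ L2 z ≤ Il (zpowers z) := fun l => by
    obtain ⟨r, hr, h1, h2, h3⟩ := h.exr hz z1
    have l' := cj_mono r l
    rw [h.cjL2 (h.RK hr), h.cjIl (h.RK hr), cj_zpowers] at l'
    exact h.nL2Z hz z1 h1 h2 h3 fun m hm => h.zL.le ⟨hm.1.1, le_cent1_iff.1 fun a ha => mem_cent1_symm.1 (cm1.1
      (((h.mz hz z1).1 ((l hm.1).2.2 a ha)).resolve_right fun e => ((h.mz h1 h2).1 (e ▸ (l' hm.2).2.2 a ha)).elim z1 h3.symm))⟩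
  rcases h.I3 hz z1 (h.ZIl (zpowers_le.2 hz)) inf_le_left fun g hg => h.nIl hg.1 (cN z hg.2) with e | e | e
  exacts [e, (k e.ge).elim, (k (inf_le_left.trans e.ge)).elim]
theorem F6' (hm : m ∈ L) (k : ∀ a ∈ L, ⁅m, a⁆ ∈ zpowers z) : m ∈ Z := (h.F6 hz z1).le ⟨hm, cN z (h.QH hz z1 (h.LQ hz z1 hm)), k⟩
theorem ZL2c : L2 z ⊓ C(L2 z) = Z := by
  have k : ¬ L2 z ≤ C(L2 z) := fun l => by
    obtain ⟨r, hr, h1, h2, h3⟩ := h.exr hz z1
    have l' := cj_mono r l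
    rw [cj_cent, h.cjL2 (h.RK hr)] at l'
    exact h.nL2Z hz z1 h1 h2 h3 fun m hm => h.zL.le ⟨hm.1.1, (h.L2ne hz z1 h1 h2 h3).1.ge.trans (le_cent1_iff.2 (by
      rw [cent_sup]; exact ⟨l hm.1, l' hm.2⟩)) |> le_cent1_iff.1⟩
  rcases h.I3 hz z1 (le_inf (h.ZL2 hz z1) (cents_symm (inf_le_left.trans h.LC))) (inf_le_left.trans inf_le_left)
    (norms_inf (h.nL2 hz z1) (norms_cent (h.nL2 hz z1))) with e | e | e
  exacts [e, (k (e.ge.trans inf_le_right)).elim, (k (inf_le_left.trans (e.ge.trans inf_le_right))).elim]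
theorem L2B (hr : r ∈ R ⊓ C[z]) (r3 : r ^ 3 = 1) (r1 : r ≠ 1) : L2 z ⊔ CL r = L := by
  have c := card_sup_mul_inf (inf_le_left.trans (h.nA (h.ZL2 hz z1) inf_le_left) : CL r ≤ _)
  rw [← inf_assoc, inf_eq_left.2 (inf_le_left : L2 z ≤ L), h.xL2 hz z1 hr r3 r1, h.cL2 hz z1, h.cB3 hr.1 r3 r1, h.cZ] at c
  exact h.eqL (sup_le inf_le_left inf_le_left) (by omega)
theorem Zx (hr : r ∈ R ⊓ C[z]) (r3 : r ^ 3 = 1) (r1 : r ≠ 1) : Z ⊓ C[r] = zpowers z := by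
  have k := fix_sub Nat.prime_three r3 (h.RK hr.1)
  have c1 := card_lt (lt_of_le_of_ne inf_le_left fun e : Z ⊓ C[r] = Z => r1 (p23 h.pL r3 (h.RC.le ⟨hr.1,
    le_cent1_iff.1 (e.ge.trans inf_le_right)⟩)))
  obtain ⟨i, c⟩ := (h.pZ.infl C[r]).exists_card
  refine (eq_of_le_of_card_ge (zpowers_le.2 (mem_inf.2 ⟨hz, mem_cent1_symm.1 hr.2⟩)) ?_).symm
  rw [c, h.cZ] at c1 k
  rw [c, h.cz2 hz z1]
  have : i < 3 := (Nat.pow_lt_pow_iff_right (by decide : 1 < 2)).1 c1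
  unfold Nat.ModEq at k
  interval_cases i <;> omega
theorem xQ (hr : r ∈ R ⊓ C[z]) (r3 : r ^ 3 = 1) (r1 : r ≠ 1) (ha : a ∈ Q z) (k : ⁅r, a⁆ ∈ L) : a ∈ L := by_contra fun n => by
  have c1 := cbd (X := Z) fun b hb => cms (ha.2.2 b hb)
  have c2 := card_lt (lt_of_le_of_ne inf_le_left fun e : Z ⊓ C[a] = Z => n (h.RC.le ⟨ha.1, le_cent1_iff.1 (e.ge.trans inf_le_right)⟩))
  have c3 := fix_sub Nat.prime_three r3 (A := Z ⊓ C[a]) (mem_norm_of_cj_le fun m hm => by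
    rw [cj_inf, cj_of_mem_norm (h.RK hr.1), cj_cent1, cjcm] at hm
    exact ⟨hm.1, mem_cent1_symm.1 ((Subgroup.mul_mem_cancel_left _ (cent_le_cent1 hm.1 (h.LC k))).1 (mem_cent1_symm.1 hm.2))⟩)
  rw [inf_right_comm, h.Zx hz z1 hr r3 r1, inf_eq_left.2 (zpowers_le.2 (mem_cent1_symm.1 (h.QH hz z1 ha))), h.cz2 hz z1] at c3
  rw [h.cZ] at c1 c2
  rw [h.cz2 hz z1] at c1
  have := pw2 (h.pZ.infl C[a]) (n := 2) c2
  unfold Nat.ModEq at c3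
  omega
end
theorem Ilinf (h1 : l ≤ Z) (c1 : #l = 4) (h2 : X ≤ Z) (c2 : #X = 4) (n : l ≠ X) : Il l ⊓ Il X = Z := by
  have k := infbd h1 h2 (norms_of_cents (cents_mono (ab_sq h.sZ) h2 h1))
  have k1 := card_lt (lt_of_le_of_ne inf_le_left fun e : l ⊓ X = l => n (eq_of_le_of_card_eq (e.ge.trans inf_le_right)
    (c1.trans c2.symm)))
  rw [c1, c2, h.cZ] at k
  obtain ⟨z, hz, z1⟩ := exists_ne_one (ne_bot_iff_one_lt_card.2 (show 1 < #(l ⊓ X) by omega))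
  have e := eq_of_le_of_card_ge (zpowers_le.2 hz) (by
    rw [h.cz2 (h1 hz.1) z1]; exact pw2 (h.pZ.of_le (inf_le_left.trans h1)) (n := 1) (by omega))
  exact le_antisymm (fun m hm => h.F6' (h1 hz.1) z1 hm.1.1 fun a ha => e.ge ⟨hm.1.2.2 a ha, hm.2.2.2 a ha⟩) (le_inf (h.ZIl h1) (h.ZIl h2))
theorem cIl (h1 : l ≤ Z) (c1 : #l = 4) : #(Il l) ≤ 2 ^ 7 := by
  have yK := h.RK h.yR
  have k := h.Ilinf h1 c1 (cj_le_of_mem_norm yK h1) ((card_cj _ _).trans c1) fun e => by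
    have := fix_sub (by norm_num) h.y7 (mem_norm_iff_cj.2 e.symm)
    rw [c1, le_bot_iff.1 ((inf_le_inf_right _ (h1.trans h.ZL)).trans h.Ly.le), card_bot] at this
    exact absurd this (by decide)
  have := infbd (A := L) inf_le_left inf_le_left (inf_le_left.trans (h.nA (h.ZIl h1) inf_le_left) : Il (cj y l) ≤ _)
  rw [k, ← h.cjIl yK, card_cj, h.cL, h.cZ] at this
  rcases h.expC (h.ZIl h1) inf_le_left (h.CIl h1) with c | c | c | c <;> rw [c] at this ⊢ <;> omega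
theorem IlL2 (h1 : l ≤ Z) (c1 : #l = 4) (hz : z ∈ l) (z1 : z ≠ 1) : Il l ≤ L2 z := by
  by_cases k : Il l = Z
  · exact k.le.trans (h.ZL2 (h1 hz) z1)
  exact (eq_of_le_of_card_ge inf_le_left ((h.cIl h1 c1).trans (h.c7 (le_inf (h.ZIl h1) (h.ZL2 (h1 hz) z1)) (inf_le_left.trans inf_le_left)
    (norms_inf (h.CIl h1) (h.CL2 (h1 hz) z1)) (h.L2fix (h1 hz) z1 (h.ZIl h1) inf_le_left (fun q hq => h.nIl (h.RK hq.1)
      (mem_norm_of_cj_le fun b hb => by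
        obtain ⟨b, hc, rfl⟩ := mem_cj'.1 hb
        exact cjcm q b ▸ mul_mem (zpowers_le.2 hz (hq.2.2 b (h1 hc))) hc)) k)))).ge.trans inf_le_right
theorem E0 (h1 : l ≤ Z) (c1 : #l = 4) (h2 : Z ≤ A) (h3 : A ≤ L) (ab : A ≤ C(A)) (c : 2 ^ 10 ≤ #A) :
    #(Il l) = 2 ^ 7 ∧ 2 ^ 6 ≤ #(A ⊓ Il l) := by
  have k := pair (fun a ha b hb => h.cmL a (h3 ha) b hb) (h3.trans h.LC) h.LC h1 fun a ha b hb => two_mul h1 (by rw [c1, h.cZ]) ha hb
  have nl : L ≤ N(l) := norms_of_cents (h.LC.trans (cent_mono h1))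
  have k1 := card_le (show A ⊔ Il l ≤ L ⊓ cm l A from sup_le (fun a ha => ⟨h3 ha, nl (h3 ha), fun b hb => cm1.2
    (cent_le_cent1 hb (ab ha)) ▸ one_mem _⟩) (inf_le_inf_left _ (cm_anti h3)))
  have k2 := card_sup_mul_inf (inf_le_left.trans (h.nA h2 h3) : Il l ≤ _)
  have k3 := card_le (inf_le_right : A ⊓ Il l ≤ _)
  have k4 := card_le (le_sup_left : A ≤ A ⊔ Il l)
  have k5 := h.cIl h1 c1
  rw [show A ⊓ cm l L = A ⊓ Il l by rw [← inf_assoc, inf_eq_left.2 h3], h.cL] at k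
  have k6 : #(A ⊔ Il l) * #A ≤ #(A ⊓ Il l) * 2 ^ 15 := k ▸ Nat.mul_le_mul_right _ k1
  have k7 : #(Il l) = 2 ^ 7 := by
    rcases h.expC (h.ZIl h1) inf_le_left (h.CIl h1) with c | c | c | c
    exacts [by nlinarith, c, by omega, by omega]
  rw [k7] at k2
  refine ⟨k7, by_contra fun n => ?_⟩
  have := Nat.mul_le_mul_right #(A ⊓ Il l) k6
  rw [mul_right_comm, k2] at this
  nlinarith
theorem E1 (h3 : A ≤ L) (ab : A ≤ C(A)) : #(A ⊔ Z) ≤ 2 ^ 9 := by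
  have l := sup_le h3 h.ZL
  refine pw2 (h.pL.of_le l) (not_le.1 fun c => ?_)
  have ab' : A ⊔ Z ≤ C(A ⊔ Z) := cents_sup (sup_le ab (cents_symm (h3.trans h.LC))) (l.trans h.LC)
  have h2 : Z ≤ A ⊔ Z := le_sup_right
  generalize A ⊔ Z = A at *
  obtain ⟨z, hz, z1⟩ := exists_ne_one h.Z1
  obtain ⟨b, hb, nb⟩ := ex_b h.sZ (by rw [h.cZ]; decide) hz
  obtain ⟨X, h1, c1, zX, bX⟩ := h.expl hz z1 hb nb
  have c2 := pl2 h.sZ hz hb z1 nb
  have h4 := sup_le (zpowers_le.2 hz) (zpowers_le.2 hb)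
  have i := h.Ilinf h1 c1 h4 c2 fun e => bX (e ▸ mem_sup_right (mem_zpowers b))
  have l2 := h.IlL2 h4 c2 (mem_sup_left (mem_zpowers z)) z1
  have l1 := h.IlL2 h1 c1 zX z1
  obtain ⟨d1, e1⟩ := h.E0 h1 c1 h2 l ab' c
  obtain ⟨d2, e2⟩ := h.E0 h4 c2 h2 l ab' c
  have n1 := h.CIl h1
  have n2 := h.CIl h4
  have z2 := h.ZIl h4
  have z3 := h.ZIl h1
  generalize Il (zpowers z ⊔ zpowers b) = J at *
  generalize Il X = I at *
  have IL := l1.trans inf_le_left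
  have JL := l2.trans inf_le_left
  have s := card_sup_mul_inf (JL.trans (h.nA z3 IL))
  rw [i, d1, d2, h.cZ] at s
  have s := eq_of_le_of_card_eq (sup_le l1 l2) (by rw [h.cL2 hz z1]; omega)
  have k : I ⊓ C(J) = Z := by_contra fun k => by
    have := card_le ((le_inf l1 (s ▸ cents_sup (ab_sq (h.sB z3 IL n1 d1)) ((eq_of_le_of_card_ge inf_le_left (d1 ▸ h.c7 (le_inf z3
      (cents_symm (JL.trans h.LC))) (inf_le_left.trans IL) (norms_inf n1 (norms_cent n2)) k)).ge.trans inf_le_right))).trans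
        (h.ZL2c hz z1).le)
    rw [d1, h.cZ] at this
    omega
  have cz := cent_zpowers z ▸ (h.LQ hz z1).trans (h.QH hz z1)
  have p := pair (X := A ⊓ I) (l := ⊥) (fun a ha b hb => h.cmL2 hz z1 (l1 ha.2) (l2 hb)) (inf_le_right.trans (IL.trans cz))
    (JL.trans cz) bot_le fun a ha b hb h1 h2 => by
      rw [((h.mz hz z1).1 ha).resolve_left h1, ((h.mz hz z1).1 hb).resolve_left h2, h.sZ z hz]; exact one_mem _
  rw [cm_bot, cm_bot, d2] at p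
  have := card_le ((inf_le_inf_right _ inf_le_right).trans k.le : A ⊓ I ⊓ C(J) ≤ Z)
  have := card_le (le_inf inf_le_right (cents_mono ab' inf_le_left inf_le_left) : A ⊓ J ≤ J ⊓ C(A ⊓ I))
  rw [h.cZ] at *
  nlinarith
theorem CL0 : C(L0) = V := le_antisymm (fun a ha => by
  have aC := cent_mono h.ZL0 ha
  have k := h.PV4 le_rfl (h.nL0 d1.2.2.2.2.1) (fun k => by have := card_le k; rw [h.cL0, h.cZ] at this; omega) aC
    ⟨cent_le_norm _ aC, fun m hm => cm1.2 (cent_le_cent1 hm ha) ▸ one_mem _⟩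
  have m := h.decC aC
  have m1 := C(L0).mul_mem ha (inv_mem (h.UL0 (mem_map_of_mem _ k)))
  have := h.E1 (sup_le inf_le_left (zpowers_le.2 m)) (cents_sup (sup_le (ab_sq h.sL0) (zpowers_le.2 m1)) (sup_le (cents_symm
    (zpowers_le.2 m1)) (comm_iff_le_cent.1 (comm_zpowers _))))
  exact h.mV.2 ⟨_, (eq_of_le_of_card_ge (le_sup_left.trans le_sup_left) (h.cL0 ▸ this)).ge (mem_sup_left (mem_sup_right
    (mem_zpowers _))), _, k, by simp⟩) (sup_le (ab_sq h.sL0) h.UL0)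
theorem nV : N(L0) ≤ N(V) := h.CL0 ▸ norm_le_norm_cent _
theorem CV : C(V) = V := le_antisymm (h.CL0 ▸ cent_mono (h.CL0 ▸ le_sup_left)) (ab_sq h.sV)
theorem J2 (hz : z ∈ Z) (z1 : z ≠ 1) (ha : a ∈ L) (n : a ∉ L2 z) (zX : z ∈ X) (k : ∀ m ∈ L2 z, ⁅m, a⁆ ∈ X) : Z ≤ X := by_contra fun nX => by
  obtain ⟨l, h1, c1, h2⟩ : ∃ l ≤ Z, #l = 4 ∧ X ⊓ Z ≤ l := by
    by_cases k : X ⊓ Z ≤ zpowers z
    · obtain ⟨b, hb, nb⟩ := ex_b h.sZ (by rw [h.cZ]; decide) hz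
      obtain ⟨l, h1, c1, h2, -⟩ := h.expl hz z1 hb nb
      exact ⟨l, h1, c1, k.trans (zpowers_le.2 h2)⟩
    obtain ⟨b, hb, nb⟩ := SetLike.not_le_iff_exists.1 k
    have := two_le (zpowers_le.2 (show z ∈ X ⊓ Z from ⟨zX, hz⟩)) hb nb
    have := pw2 (h.pZ.infr X) (n := 2) ((card_lt (lt_of_le_of_ne inf_le_right fun e => nX (e.ge.trans inf_le_left))).trans_eq h.cZ)
    rw [h.cz2 hz z1] at *
    exact ⟨_, inf_le_right, by omega, le_rfl⟩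
  have nl : C(Z) ≤ N(l) := norms_of_cents (cent_mono h1)
  have l1 : L2 z ≤ L ⊓ cm l (L2 z) := fun m hm => ⟨hm.1, nl (h.LC hm.1), fun b hb => zpowers_le.2 (h2 ⟨zX, hz⟩) (h.cmL2 hz z1 hm hb)⟩
  have c := two_le l1 ⟨ha, nl (h.LC ha), fun m hm => cms (h2 ⟨k m hm, h.cmL _ hm.1 _ ha⟩)⟩ n
  have c2 := h.expC ((h.ZL2 hz z1).trans l1) inf_le_left (norms_inf ((cent_le_norm _).trans h.nL) (cm_nms nl (h.CL2 hz z1)))
  rw [h.cL2 hz z1] at c
  have c3 : L ⊓ cm l (L2 z) = L := h.eqL inf_le_left (by omega)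
  have := (card_le (le_inf inf_le_left (cm_sys (c3.ge.trans inf_le_right)
    (inf_le_left.trans (h.LC.trans nl))))).trans (h.cIl h1 c1)
  rw [h.cL2 hz z1] at this
  omega
end KS
end H26.JP
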